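import Cfsg.Agent.Lib.ReeG2.Fini2

/-!
# The Ree group is generated by two elements
-/

set_option autoImplicit false
set_option linter.unusedTactic false
set_option linter.unreachableTactic false
set_option linter.unusedSectionVars false
set_option linter.unusedVariables false
set_option linter.ambiguousOpen false
set_option linter.dupNamespace false
set_option maxHeartbeats 2000000

namespace Cfsg.Agent.Lib.ReeG2.Gen2

open scoped MatrixGroups Matrix commutatorElement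
open Cfsg Lie ChevalleyDatum
open Cfsg.Agent.Lib.Chev
open Tables Tables2 Tables3 Raise Basic AxBasic Torus Products Products2 Mono1 Mono2 Mono3 Bn ChevSimple
open Cfsg.Agent.Lib.Twisted.Fact Cfsg.Agent.Lib.Twisted.Bruhat Cfsg.Agent.Lib.Twisted.Tw
open Cfsg.Agent.Lib.Twisted.Struct Cfsg.Agent.Lib.Twisted.Check Cfsg.Agent.Lib.Twisted.Ortho
open Cfsg.Agent.Lib.ReeG2.Blocks Cfsg.Agent.Lib.ReeG2.Tw Cfsg.Agent.Lib.ReeG2.Blk7 Cfsg.Agent.Lib.ReeG2.Unip
open Cfsg.Agent.Lib.ReeG2.RTD Cfsg.Agent.Lib.ReeG2.H1 Cfsg.Agent.Lib.ReeG2.Rank1 Cfsg.Agent.Lib.ReeG2.Str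
open Cfsg.Agent.Lib.ReeG2.Fini Cfsg.Agent.Lib.ReeG2.Fini2

section Field

variable {F : Type*} [Field F] [CharP F 3] (ax : Ax chevG2 F)
variable (f : F ≃+* F) {e : ℕ} (hf : ∀ t, f t = t ^ e) (hff : ∀ t, f (f t) ^ 3 = t)
variable (T : Subgroup (GL chevG2.Idx F)) (hH : ∀ l : Fˣ, hh f l ∈ T)

/-- An additive subgroup which is stable under all units and contains a nonzero element is everything. -/
lemma top_of_stable (V : AddSubgroup F) (hV : ∀ x ∈ V, ∀ l : Fˣ, (l : F) * x ∈ V) {x : F} (hx : x ∈ V) (hx0 : x ≠ 0) (y : F) :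
    y ∈ V := by
  by_cases hy : y = 0
  · rw [hy]; exact V.zero_mem
  · have := hV x hx (Units.mk0 (y / x) (div_ne_zero hy hx0))
    simpa [div_mul_cancel₀ _ hx0] using this

include hff in
/-- The `t`-coordinates of `T`. -/
def At : AddSubgroup F where
  carrier := {t | ∃ u v, xx ax f t u v ∈ T}
  zero_mem' := ⟨0, 0, by rw [xx_zero']; exact T.one_mem⟩
  add_mem' := by
    rintro a b ⟨u, v, h⟩ ⟨u', v', h'⟩
    have := T.mul_mem h h'
    rw [xx_mul ax f hff] at this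
    exact ⟨_, _, this⟩
  neg_mem' := by
    rintro a ⟨u, v, h⟩
    have := T.inv_mem h
    rw [xx_inv ax f hff] at this
    exact ⟨_, _, this⟩

/-- The `v`-coordinates of `T`. -/
def Av : AddSubgroup F where
  carrier := {v | xx ax f 0 0 v ∈ T}
  zero_mem' := by
    show xx ax f 0 0 0 ∈ T
    rw [xx_zero']; exact T.one_mem
  add_mem' := by
    intro a b h h'
    have := T.mul_mem h h'
    rw [xx_mul ax f hff] at this
    simpa using this
  neg_mem' := by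
    intro a h
    have := T.inv_mem h
    rw [xx_inv ax f hff] at this
    simpa using this

/-- The `u`-coordinates of `T`. -/
def Au : AddSubgroup F where
  carrier := {u | xx ax f 0 u 0 ∈ T}
  zero_mem' := by
    show xx ax f 0 0 0 ∈ T
    rw [xx_zero']; exact T.one_mem
  add_mem' := by
    intro a b h h'
    have := T.mul_mem h h'
    rw [xx_mul ax f hff] at this
    simpa using this
  neg_mem' := by
    intro a h
    have := T.inv_mem h
    rw [xx_inv ax f hff] at this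
    simpa using this

include hff hH

lemma conj_mem {l : Fˣ} {t u v : F} (h : xx ax f t u v ∈ T) :
    xx ax f (l * t) ((f l) ^ 3 * l * u) ((f l) ^ 3 * l ^ 2 * v) ∈ T := by
  rw [← hh_conj_xx ax f hff]
  exact T.mul_mem (T.mul_mem (hH l) h) (T.inv_mem (hH l))

lemma At_top {t₀ : F} (ht₀ : t₀ ∈ At ax f hff T) (h0 : t₀ ≠ 0) (t : F) : t ∈ At ax f hff T := by
  refine top_of_stable (At ax f hff T) ?_ ht₀ h0 t
  rintro x ⟨u, v, h⟩ l
  exact ⟨_, _, conj_mem ax f hff T hH h⟩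

lemma Av_top (h : ∀ t : F, t ∈ At ax f hff T) (v : F) : v ∈ Av ax f hff T := by
  obtain ⟨u₀, v₀, h₀⟩ := h 1
  have h1 := T.pow_mem h₀ 3
  rw [xx_cube ax f hff] at h1
  have hm1 : (-1 : F) ∈ Av ax f hff T := by
    show xx ax f 0 0 (-1) ∈ T
    simpa using h1
  have hne : (-1 : F) ≠ 0 := by simp
  refine top_of_stable (Av ax f hff T) ?_ hm1 hne v
  intro x hx l
  -- the multiplier `l = (f s)³ s²` with `s = l² (f l)⁻³`
  set s : Fˣ := l ^ 2 * (uf f l)⁻¹ ^ 3 with hs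
  have h2 : xx ax f 0 0 x ∈ T := hx
  have h3 := conj_mem ax f hff T hH (l := s) h2
  have hv : (f s) ^ 3 * (s : F) ^ 2 = l := by
    have hl0 : (f l : F) ≠ 0 := by simp
    have hl1 : (l : F) ≠ 0 := l.ne_zero
    have e2 : ((f (f (l : F))) ^ 3) = l := hff l
    have es : (s : F) = l ^ 2 * (f l)⁻¹ ^ 3 := by
      simp [hs]
    rw [es]
    simp only [map_mul, map_pow, map_inv₀]
    have e3 : (f (f (l:F)))⁻¹ ^ (3 * 3) = (l:F)⁻¹ ^ 3 := by rw [pow_mul, inv_pow, e2]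
    rw [mul_pow, ← pow_mul, ← pow_mul, e3]
    field_simp
  have e0 : (s : F) * 0 = 0 := by simp
  have e1 : (f s) ^ 3 * s * (0 : F) = 0 := by simp
  rw [e0, e1, hv] at h3
  exact h3

lemma Au_top {u₀ : F} (hu₀ : u₀ ∈ Au ax f hff T) (h0 : u₀ ≠ 0) (u : F) : u ∈ Au ax f hff T := by
  have h3 : (3 : F) = 0 := three_eq_zero
  -- stable under squares of units
  have hsq : ∀ x ∈ Au ax f hff T, ∀ ν : Fˣ, (ν : F) ^ 2 * x ∈ Au ax f hff T := by
    intro x hx ν
    have h2 : xx ax f 0 x 0 ∈ T := hx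
    set s : Fˣ := (uf f ν) ^ 3 * ν⁻¹ with hs
    have h4 := conj_mem ax f hff T hH (l := s) h2
    have hv : (f s) ^ 3 * (s : F) = (ν : F) ^ 2 := by
      have e2 : ((f (f (ν : F))) ^ 3) = ν := hff ν
      have hl0 : (f ν : F) ≠ 0 := by simp
      have hl1 : (ν : F) ≠ 0 := ν.ne_zero
      have es : (s : F) = (f ν) ^ 3 * (ν : F)⁻¹ := by
        simp [hs]
      rw [es]
      simp only [map_mul, map_pow, map_inv₀]
      rw [mul_pow, ← pow_mul]
      have e4 : f (f (ν : F)) ^ (3 * 3) = (ν : F) ^ 3 := by rw [mul_comm, pow_mul, e2]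
      rw [e4, inv_pow]
      field_simp
    have e0 : (s : F) * 0 = 0 := by simp
    have e1 : (f s) ^ 3 * (s : F) ^ 2 * (0 : F) = 0 := by simp
    rw [e0, e1, hv] at h4
    exact h4
  have hsq0 : ∀ x ∈ Au ax f hff T, ∀ c : F, c ^ 2 * x ∈ Au ax f hff T := by
    intro x hx c
    by_cases hc : c = 0
    · subst hc
      simpa using (Au ax f hff T).zero_mem
    · exact hsq x hx (Units.mk0 c hc)
  refine top_of_stable (Au ax f hff T) ?_ hu₀ h0 u
  intro x hx l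
  have e : (l : F) * x = ((l : F) + 1) ^ 2 * x - ((l : F) - 1) ^ 2 * x := by
    linear_combination (-(l : F) * x) * h3
  rw [e]
  exact (Au ax f hff T).sub_mem (hsq0 x hx _) (hsq0 x hx _)

/-- The coordinates of a commutator. -/
lemma Au_ne (h : ∀ t : F, t ∈ At ax f hff T) (hv : ∀ v, v ∈ Av ax f hff T) {l : Fˣ} (hl : (l : F) ^ 2 ≠ 1) :
    ∃ u₀ ∈ Au ax f hff T, u₀ ≠ 0 := by
  obtain ⟨u1, v1, h1⟩ := h l
  obtain ⟨u2, v2, h2⟩ := h 1
  have h12 := T.mul_mem h1 h2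
  have h21 := T.mul_mem h2 h1
  rw [xx_mul ax f hff] at h12 h21
  have h3 := T.mul_mem (T.inv_mem h21) h12
  rw [xx_inv ax f hff, xx_mul ax f hff] at h3
  have hfl := hff (l : F)
  have hcube : ∀ a b : F, a ^ 3 = b ^ 3 → a = b := by
    intro a b hab
    have h33 : (3 : F) = 0 := three_eq_zero
    have : (a - b) ^ 3 = 0 := by
      linear_combination hab + (-a ^ 2 * b + a * b ^ 2) * h33
    have := pow_eq_zero_iff (n := 3) (by norm_num) |>.mp this
    exact sub_eq_zero.mp this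
  have hne : f (l : F) ^ 3 - (l : F) ≠ 0 := by
    intro h0
    have e1 : f (l : F) ^ 3 = l := sub_eq_zero.mp h0
    have e2 : f (f (l : F)) = f l := hcube _ _ (hfl.trans e1.symm)
    have e3 : f (l : F) = l := f.injective e2
    rw [e3] at e1
    apply hl
    have hl0 := l.ne_zero
    have : (l : F) * ((l : F) ^ 2 - 1) = 0 := by linear_combination e1
    have := (mul_eq_zero.mp this).resolve_left hl0
    exact sub_eq_zero.mp this
  have hA : -((1 : F) + l) + ((l : F) + 1) = 0 := by ring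
  have hB : -(u2 + u1 - 1 * f (l : F) ^ 3) - (1 + (l : F)) * f (1 + (l : F)) ^ 3 + (u1 + u2 - (l : F) * f (1 : F) ^ 3) -
      (-(1 + (l : F))) * f ((l : F) + 1) ^ 3 = f (l : F) ^ 3 - l := by
    rw [add_comm (1 : F) (l : F), map_one]
    ring
  rw [hA, hB] at h3
  have h3' : ∃ C, xx ax f 0 (f (l : F) ^ 3 - l) C ∈ T := ⟨_, h3⟩
  obtain ⟨C, h3⟩ := h3'
  refine ⟨_, ?_, hne⟩
  show xx ax f 0 (f (l : F) ^ 3 - l) 0 ∈ T
  have h4 := T.mul_mem h3 (hv (-C))
  rw [xx_mul ax f hff] at h4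
  simpa using h4

/-- All of `U¹` in `T`. -/
lemma xx_all_mem (hn : n0 ax * xx ax f 1 0 0 ∈ T) {l : Fˣ} (hl : (l : F) ^ 2 ≠ 1) (t u v : F) : xx ax f t u v ∈ T := by
  -- the word `h a⁻¹ h⁻¹ a h⁻²`
  have hl1 : (l : F) ≠ 1 := by
    rintro e
    apply hl
    rw [e, one_pow]
  set h := hh f l with hh₀
  set x := xx ax f 1 0 0 with hx
  have e1 : n0 ax * h⁻¹ * n0 ax = h := by
    rw [hh₀, hh_inv, hh, hh, n0_conj_tt, uf_inv, inv_inv, inv_inv]
  have hw : (h * x⁻¹ * h⁻¹) * ((h * h) * x * (h * h)⁻¹) ∈ T := by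
    have e2 := T.mul_mem (T.mul_mem (T.mul_mem (T.mul_mem (hH l) (T.inv_mem hn)) (T.inv_mem (hH l))) hn)
      (T.inv_mem (T.mul_mem (hH l) (hH l)))
    have e3 : hh f l * (n0 ax * xx ax f 1 0 0)⁻¹ * (hh f l)⁻¹ * (n0 ax * xx ax f 1 0 0) * (hh f l * hh f l)⁻¹ =
        (h * x⁻¹ * h⁻¹) * ((h * h) * x * (h * h)⁻¹) := by
      rw [← hh₀, ← hx, mul_inv_rev, n0_inv]
      calc h * (x⁻¹ * n0 ax) * h⁻¹ * (n0 ax * x) * (h * h)⁻¹
          = h * x⁻¹ * (n0 ax * h⁻¹ * n0 ax) * x * (h * h)⁻¹ := by group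
        _ = _ := by rw [e1]; group
    rwa [e3] at e2
  have e4 : h * x * h⁻¹ = xx ax f l 0 0 := by
    rw [hh₀, hx, hh_conj_xx ax f hff]
    simp
  have e4' : h * x⁻¹ * h⁻¹ = (xx ax f l 0 0)⁻¹ := by
    rw [← e4]; group
  have e5 : (h * h) * x * (h * h)⁻¹ = xx ax f ((l : F) ^ 2) 0 0 := by
    have e := hh_conj_xx ax f hff (l * l) 1 0 0
    rw [hh_mul, ← hh₀, ← hx] at e
    rw [e]
    simp [pow_two]
  rw [e4', e5, xx_inv ax f hff, xx_mul ax f hff] at hw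
  have ht : (-(l : F) + (l : F) ^ 2) ∈ At ax f hff T := ⟨_, _, hw⟩
  have ht0 : (-(l : F) + (l : F) ^ 2) ≠ 0 := by
    intro h0
    have : (l : F) * ((l : F) - 1) = 0 := by linear_combination h0
    rcases mul_eq_zero.mp this with h' | h'
    · exact l.ne_zero h'
    · exact hl1 (sub_eq_zero.mp h')
  have hAt := At_top ax f hff T hH ht ht0
  have hAv := Av_top ax f hff T hH hAt
  obtain ⟨u₀, hu₀, hu0⟩ := Au_ne ax f hff T hH hAt hAv hl
  have hAu := Au_top ax f hff T hH hu₀ hu0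
  obtain ⟨u₁, v₁, h₁⟩ := hAt t
  have h2 : xx ax f 0 (u - u₁) 0 ∈ T := hAu _
  have h3 : xx ax f 0 0 (v - v₁) ∈ T := hAv _
  have h4 := T.mul_mem (T.mul_mem h₁ h2) h3
  rw [xx_mul ax f hff, xx_mul ax f hff] at h4
  simpa using h4

lemma n0_mem_T (hn : n0 ax * xx ax f 1 0 0 ∈ T) {l : Fˣ} (hl : (l : F) ^ 2 ≠ 1) : n0 ax ∈ T := by
  have := T.mul_mem hn (T.inv_mem (xx_all_mem ax f hff T hH hn hl 1 0 0))
  simpa using this

end Field

section Finite

variable {K : Type*} [Field K] [Fintype K] {m : ℕ}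

theorem two_gen (hm : 1 ≤ m) (hK : Fintype.card K = 3 ^ (2 * m + 1)) :
    ∃ a b : ↥(twistedG2 K (3 ^ m)), Subgroup.closure ({a, b} : Set ↥(twistedG2 K (3 ^ m))) = ⊤ := by
  obtain ⟨hc, f, hf, hff, ax, hns⟩ := exists_ctx hK
  haveI := hc
  obtain ⟨l, hl⟩ := exists_l hm hK
  obtain ⟨g, hg⟩ := IsCyclic.exists_generator (α := Kˣ)
  refine ⟨⟨hh f g, (hh_mem_H1 ax f hf hns hff g).2⟩,
    ⟨n0 ax * xx ax f 1 0 0, (twistedG2 K (3 ^ m)).mul_mem (n0_mem' ax f hf) (xx_mem ax f hf 1 0 0)⟩, ?_⟩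
  set S := Subgroup.closure ({⟨hh f g, (hh_mem_H1 ax f hf hns hff g).2⟩,
    ⟨n0 ax * xx ax f 1 0 0, (twistedG2 K (3 ^ m)).mul_mem (n0_mem' ax f hf) (xx_mem ax f hf 1 0 0)⟩} :
      Set ↥(twistedG2 K (3 ^ m))) with hS
  set T : Subgroup (GL chevG2.Idx K) := S.map (twistedG2 K (3 ^ m)).subtype with hT
  have hTmem : ∀ y : ↥(twistedG2 K (3 ^ m)), y.1 ∈ T → y ∈ S := by
    rintro y ⟨z, hz, e⟩
    have : z = y := Subtype.ext e
    rwa [← this]
  have hh1 : hh f g ∈ T := ⟨⟨hh f g, (hh_mem_H1 ax f hf hns hff g).2⟩, Subgroup.subset_closure (by simp), rfl⟩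
  have hn : n0 ax * xx ax f 1 0 0 ∈ T :=
    ⟨⟨n0 ax * xx ax f 1 0 0, (twistedG2 K (3 ^ m)).mul_mem (n0_mem' ax f hf) (xx_mem ax f hf 1 0 0)⟩,
      Subgroup.subset_closure (by simp), rfl⟩
  have hH : ∀ l : Kˣ, hh f l ∈ T := by
    intro l
    obtain ⟨k, rfl⟩ := hg l
    have : hh f (g ^ k) = (hh f g) ^ k := map_zpow (hhHom f) g k
    rw [this]
    exact T.zpow_mem hh1 k
  have hX := xx_all_mem ax f hff T hH hn hl
  have hN := n0_mem_T ax f hff T hH hn hl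
  rw [eq_top_iff]
  rintro y -
  apply hTmem
  have hU : ∀ u ∈ UG K (3 ^ m), (u : GL chevG2.Idx K) ∈ T := by
    intro u hu
    obtain ⟨t, a, b, e⟩ := (mem_U1_iff ax f hf hff).mp hu
    have e' : (u : GL chevG2.Idx K) = xx ax f t a b := e
    rw [e']
    exact hX _ _ _
  have hHG : ∀ u ∈ HG K (3 ^ m), (u : GL chevG2.Idx K) ∈ T := by
    intro u hu
    obtain ⟨l, e⟩ := H1_form ax f hf hff (Subgroup.mem_subgroupOf.mp hu).1 (Subgroup.mem_subgroupOf.mp hu).2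
    rw [e]
    exact hH l
  rcases bruhat_R ax f hf hff y with ⟨u, hu, h, hh', rfl⟩ | ⟨u, hu, h, hh', u', hu', rfl⟩
  · exact T.mul_mem (hU u hu) (hHG h hh')
  · exact T.mul_mem (T.mul_mem (T.mul_mem (hU u hu) hN) (hHG h hh')) (hU u' hu')

end Finite

end Cfsg.Agent.Lib.ReeG2.Gen2
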