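import Cfsg.Agent.Lib.ReeG2.Fini2
import Cfsg.Agent.Lib.KS71.ChevFix
import Cfsg.Agent.Lib.KS71.PSLAutGroup
import Cfsg.Agent.Lib.Classical.OmegaOut

/-!
# The automorphisms of the Ree group

Every automorphism of `²G₂(q)` is an inner automorphism times a field automorphism, and
`Out(²G₂(3^(2m+1)))` has order `2m+1`.
-/

set_option autoImplicit false
set_option linter.unusedTactic false
set_option linter.unreachableTactic false
set_option linter.unusedSectionVars false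
set_option linter.unusedVariables false
set_option linter.ambiguousOpen false
set_option linter.dupNamespace false
set_option maxHeartbeats 2000000

namespace Cfsg.Agent.Lib.ReeG2.OutR

open scoped MatrixGroups Matrix commutatorElement Pointwise
open Cfsg Lie ChevalleyDatum
open Cfsg.Agent.Lib.Chev
open Tables Tables2 Tables3 Raise Basic AxBasic Torus Products Products2 Mono1 Mono2 Mono3 Bn ChevSimple
open Cfsg.Agent.Lib.Twisted.Fact Cfsg.Agent.Lib.Twisted.Bruhat Cfsg.Agent.Lib.Twisted.Tw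
open Cfsg.Agent.Lib.Twisted.Struct Cfsg.Agent.Lib.Twisted.Check Cfsg.Agent.Lib.Twisted.Ortho
open Cfsg.Agent.Lib.ReeG2.Blocks Cfsg.Agent.Lib.ReeG2.Tw Cfsg.Agent.Lib.ReeG2.Blk7 Cfsg.Agent.Lib.ReeG2.Unip
open Cfsg.Agent.Lib.ReeG2.RTD Cfsg.Agent.Lib.ReeG2.H1 Cfsg.Agent.Lib.ReeG2.Rank1 Cfsg.Agent.Lib.ReeG2.Str
open Cfsg.Agent.Lib.ReeG2.Fini Cfsg.Agent.Lib.ReeG2.Fini2
open Cfsg.Agent.Lib.KS71.ChevFix

/-- The group. -/
abbrev GG (F : Type*) [Field F] (e : ℕ) := ↥(twistedG2 F e)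

/-- The context. -/
structure Ctx (F : Type*) [Field F] [Fintype F] [CharP F 3] (e : ℕ) where
  ax : Ax chevG2 F
  f : F ≃+* F
  hf : ∀ t, f t = t ^ e
  hff : ∀ t, f (f t) ^ 3 = t
  hns : ∀ l : Fˣ, (∃ ν : Fˣ, l = ν ^ 2) ∨ ∃ ν : Fˣ, l = -ν ^ 2
  hmov : ∃ a : F, f a ^ 3 ≠ a
  hl : ∃ l : Fˣ, (l : F) ^ 2 ≠ 1
  hgen : ∃ ζ : Fˣ, (∀ l : Fˣ, l ∈ Subgroup.zpowers ζ) ∧ ¬ (ζ ^ 18 = 1)
  hP : IsPGroup 3 ↥(UG F e)
  hI : ¬ 3 ∣ (UG F e).index
  hcen : Subgroup.center (GG F e) = ⊥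

variable {F : Type*} [Field F] [Fintype F] [CharP F 3] {e : ℕ} (C : Ctx F e)

namespace Ctx

/-- Elements of `U¹`. -/
def x (t u v : F) : GG F e := ⟨xx C.ax C.f t u v, xx_mem C.ax C.f C.hf t u v⟩

/-- Elements of `H¹`. -/
def h (l : Fˣ) : GG F e := ⟨hh C.f l, (hh_mem_H1 C.ax C.f C.hf C.hns C.hff l).2⟩

/-- The involution. -/
def n : GG F e := nG1 C.ax C.f C.hf

lemma S : Sp (UG F e) (HG F e) C.n := spR C.ax C.f C.hf C.hff C.hns

lemma x_mul (t1 u1 v1 t2 u2 v2 : F) : C.x t1 u1 v1 * C.x t2 u2 v2 =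
    C.x (t1 + t2) (u1 + u2 - t1 * C.f t2 ^ 3) (v1 + v2 - t2 * u1 + t1 * t2 * C.f t2 ^ 3 - t1 ^ 2 * C.f t2 ^ 3) :=
  Subtype.ext (xx_mul C.ax C.f C.hff _ _ _ _ _ _)

lemma x_inj {t u v t' u' v' : F} (h : C.x t u v = C.x t' u' v') : t = t' ∧ u = u' ∧ v = v' :=
  xx_inj C.ax C.f (congrArg Subtype.val h)

lemma x_zero : C.x 0 0 0 = 1 := Subtype.ext (xx_zero' C.ax C.f)

lemma x_inv (t u v : F) : (C.x t u v)⁻¹ = C.x (-t) (-u - t * C.f t ^ 3) (-v - t * u + t ^ 2 * C.f t ^ 3) :=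
  Subtype.ext (xx_inv C.ax C.f C.hff _ _ _)

lemma x_cube (t u v : F) : C.x t u v ^ 3 = C.x 0 0 (-(t ^ 2 * C.f t ^ 3)) :=
  Subtype.ext (xx_cube C.ax C.f C.hff _ _ _)

lemma h_mul (l l' : Fˣ) : C.h (l * l') = C.h l * C.h l' := Subtype.ext (hh_mul C.f l l')

lemma h_one : C.h 1 = 1 := Subtype.ext (hh_one C.f)

lemma h_inv (l : Fˣ) : (C.h l)⁻¹ = C.h l⁻¹ := Subtype.ext (hh_inv C.f l)

lemma h_inj {l l' : Fˣ} (e : C.h l = C.h l') : l = l' :=
  hh_injective C.ax C.f C.hff (congrArg Subtype.val e)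

lemma h_comm (l l' : Fˣ) : C.h l * C.h l' = C.h l' * C.h l := by
  rw [← h_mul, ← h_mul, mul_comm]

lemma h_conj (l : Fˣ) (t u v : F) :
    C.h l * C.x t u v * (C.h l)⁻¹ = C.x (l * t) ((C.f l) ^ 3 * l * u) ((C.f l) ^ 3 * l ^ 2 * v) :=
  Subtype.ext (hh_conj_xx C.ax C.f C.hff l t u v)

lemma mem_U {g : GG F e} : g ∈ UG F e ↔ ∃ t u v, g = C.x t u v := by
  constructor
  · intro hg
    obtain ⟨t, u, v, h1⟩ := (mem_U1_iff C.ax C.f C.hf C.hff).mp hg
    exact ⟨t, u, v, Subtype.ext h1⟩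
  · rintro ⟨t, u, v, rfl⟩
    exact xx_mem_U1 C.ax C.f C.hf C.hff t u v

lemma x_mem (t u v : F) : C.x t u v ∈ UG F e := C.mem_U.mpr ⟨t, u, v, rfl⟩

lemma mem_H {g : GG F e} : g ∈ HG F e ↔ ∃ l, g = C.h l := by
  constructor
  · intro hg
    obtain ⟨l, hl⟩ := H1_form C.ax C.f C.hf C.hff hg.1 hg.2
    exact ⟨l, Subtype.ext hl⟩
  · rintro ⟨l, rfl⟩
    exact hh_mem_H1 C.ax C.f C.hf C.hns C.hff l

lemma h_mem (l : Fˣ) : C.h l ∈ HG F e := C.mem_H.mpr ⟨l, rfl⟩

lemma n_conj_h (l : Fˣ) : C.n * C.h l * C.n = C.h l⁻¹ := by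
  apply Subtype.ext
  show n0 C.ax * hh C.f l * n0 C.ax = hh C.f l⁻¹
  rw [hh, n0_conj_tt, hh, uf_inv]

lemma n_mul_n : C.n * C.n = 1 := C.S.n_sq

lemma bruhat (g : GG F e) : (∃ t u v l, g = C.x t u v * C.h l) ∨
    ∃ t u v l t' u' v', g = C.x t u v * C.n * C.h l * C.x t' u' v' := by
  rcases C.S.bruhat g with ⟨u, hu, a, ha, rfl⟩ | ⟨u, hu, a, ha, u', hu', rfl⟩
  · left
    obtain ⟨t, y, v, rfl⟩ := C.mem_U.mp hu
    obtain ⟨l, rfl⟩ := C.mem_H.mp ha
    exact ⟨t, y, v, l, rfl⟩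
  · right
    obtain ⟨t, y, v, rfl⟩ := C.mem_U.mp hu
    obtain ⟨l, rfl⟩ := C.mem_H.mp ha
    obtain ⟨t', y', v', rfl⟩ := C.mem_U.mp hu'
    exact ⟨t, y, v, l, t', y', v', rfl⟩

lemma x_split (t u v : F) : C.x t u v = C.x t 0 0 * C.x 0 u v := by
  rw [x_mul]
  simp [map_zero]

lemma x_split' (u v : F) : C.x 0 u v = C.x 0 u 0 * C.x 0 0 v := by
  rw [x_mul]
  simp [map_zero]

/-! ### Field automorphisms -/

lemma f_comm (τ : F ≃+* F) (t : F) : τ (C.f t) = C.f (τ t) := by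
  rw [C.hf, C.hf, map_pow]

lemma mapX_xx (τ : F ≃+* F) (t u v : F) :
    mapX chevG2 (τ : F →+* F) (xx C.ax C.f t u v) = xx C.ax C.f (τ t) (τ u) (τ v) := by
  simp only [xx, UU, map_mul, mapX_xG C.ax C.ax]
  simp only [RingEquiv.coe_toRingHom, map_add, map_mul, map_pow, f_comm]

lemma mapX_n0 (τ : F ≃+* F) : mapX chevG2 (τ : F →+* F) (n0 C.ax) = n0 C.ax := by
  simp only [n0, map_mul, mapX_nG C.ax C.ax, map_one]

include C in
lemma mapX_mem (τ : F ≃+* F) {g : GL chevG2.Idx F} (hg : g ∈ twistedG2 F e) :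
    mapX chevG2 (τ : F →+* F) g ∈ twistedG2 F e := by
  have key : twistedG2 F e ≤ (twistedG2 F e).comap (mapX chevG2 (τ : F →+* F)) := by
    rw [twistedG2, genSubgroup, Subgroup.closure_le]
    rintro g ⟨w, hw, hg⟩
    rw [SetLike.mem_coe, Subgroup.mem_comap]
    obtain ⟨t, u, v, rfl | rfl⟩ := hw
    · have e1 : g = xx C.ax C.f t u v := Units.ext (by rw [hg, xx_word C.ax C.f C.hf])
      rw [e1, C.mapX_xx]
      exact xx_mem C.ax C.f C.hf _ _ _
    · have e1 : g = n0 C.ax * xx C.ax C.f t u v * n0 C.ax := Units.ext (by rw [hg, V_word C.ax C.f C.hf])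
      rw [e1, map_mul, map_mul, C.mapX_xx, C.mapX_n0]
      exact Subgroup.mul_mem _ (Subgroup.mul_mem _ (n0_mem_G1 C.ax C.f C.hf) (xx_mem C.ax C.f C.hf _ _ _)) (n0_mem_G1 C.ax C.f C.hf)
  exact key hg

/-- The field automorphism. -/
noncomputable def fld (τ : F ≃+* F) : MulAut (GG F e) where
  toFun g := ⟨mapX chevG2 (τ : F →+* F) g.1, C.mapX_mem τ g.2⟩
  invFun g := ⟨mapX chevG2 (τ.symm : F →+* F) g.1, C.mapX_mem τ.symm g.2⟩
  left_inv g := by
    apply Subtype.ext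
    apply Units.ext
    ext a b
    simp
  right_inv g := by
    apply Subtype.ext
    apply Units.ext
    ext a b
    simp
  map_mul' a b := by
    apply Subtype.ext
    simp

lemma fld_x (τ : F ≃+* F) (t u v : F) : C.fld τ (C.x t u v) = C.x (τ t) (τ u) (τ v) :=
  Subtype.ext (C.mapX_xx τ t u v)

lemma fld_h (τ : F ≃+* F) (l : Fˣ) : C.fld τ (C.h l) = C.h (Units.map (τ : F →* F) l) := by
  apply Subtype.ext
  show mapX chevG2 (τ : F →+* F) (hh C.f l) = hh C.f (Units.map (τ : F →* F) l)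
  rw [hh, tt, mapX_tor, hh, tt]
  congr 1
  funext i
  unfold wt
  split_ifs
  · apply Units.ext
    show τ (C.f l) = C.f (τ l)
    exact C.f_comm τ _
  · rfl

theorem fld_mul (σ τ : F ≃+* F) : C.fld (σ * τ) = C.fld σ * C.fld τ := by
  refine MulEquiv.ext fun g => ?_
  apply Subtype.ext
  apply Units.ext
  ext a b
  rfl

theorem fld_one : C.fld (1 : F ≃+* F) = 1 := by
  refine MulEquiv.ext fun g => ?_
  apply Subtype.ext
  apply Units.ext
  ext a b
  rfl

theorem fld_inv (σ : F ≃+* F) : C.fld σ⁻¹ = (C.fld σ)⁻¹ := by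
  rw [eq_inv_iff_mul_eq_one, ← fld_mul, inv_mul_cancel, fld_one]

/-! ### Field identities -/

include C in
lemma three : (3 : F) = 0 := three_eq_zero

include C in
lemma two_ne : (2 : F) ≠ 0 := by
  intro h
  have h1 : (1 : F) = 0 := by linear_combination C.three - h
  exact one_ne_zero h1

include C in
lemma neg_eq_add (w : F) : -w = w + w := by linear_combination (-w) * C.three

include C in
lemma eq_zero_of_neg {w : F} (h : w = -w) : w = 0 := by
  have h1 : 2 * w = 0 := by linear_combination h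
  exact (mul_eq_zero.mp h1).resolve_left C.two_ne

include C in
lemma neg_one_nonsq (μ : F) : μ ^ 2 ≠ -1 := by
  intro h
  have hne : (-1 : F) ≠ 1 := by
    intro h1
    apply C.two_ne
    linear_combination -h1
  have h1 : C.f μ ^ 2 = -1 := by
    have := congrArg C.f h
    simpa using this
  have h2 : (C.f μ - μ) * (C.f μ + μ) = 0 := by linear_combination h1 - h
  rcases mul_eq_zero.mp h2 with h3 | h3
  · have e1 : C.f μ = μ := sub_eq_zero.mp h3
    have e2 : C.f μ ^ 3 * μ = 1 := by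
      rw [e1]
      calc μ ^ 3 * μ = (μ ^ 2) ^ 2 := by ring
        _ = 1 := by rw [h]; ring
    have e3 := sq_eq_one_of_fix_u C.f C.hff e2
    rw [h] at e3
    exact hne e3
  · have e1 : C.f μ = -μ := eq_neg_of_add_eq_zero_left h3
    have e2 := C.hff μ
    have e4 : C.f (C.f μ) = μ := by rw [e1, map_neg, e1, neg_neg]
    rw [e4] at e2
    have e5 : μ = -μ := by
      calc μ = μ ^ 3 := e2.symm
        _ = μ * μ ^ 2 := by ring
        _ = -μ := by rw [h]; ring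
    have e6 := C.eq_zero_of_neg e5
    rw [e6] at h
    apply hne
    have : (0 : F) ^ 2 = 0 := by ring
    rw [this] at h
    exact absurd h.symm (by simp)

/-- The map `l ↦ (f l)³ l` on units. -/
noncomputable def uc (l : Fˣ) : Fˣ := uf C.f l ^ 3 * l

lemma uc_val (l : Fˣ) : ((C.uc l : Fˣ) : F) = C.f l ^ 3 * l := by
  simp [uc]

lemma uc_mul (l l' : Fˣ) : C.uc (l * l') = C.uc l * C.uc l' := by
  simp only [uc, uf_mul, mul_pow]
  exact mul_mul_mul_comm _ _ _ _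

/-- Every square is a value of `uc`. -/
lemma exists_uc (ν : Fˣ) : ∃ l : Fˣ, C.uc l = ν ^ 2 := by
  let T := {a : Fˣ // IsSquare a}
  let m : T → T := fun a => ⟨C.uc a.1, by
    obtain ⟨b, hb⟩ := a.2
    refine ⟨C.uc b, ?_⟩
    rw [hb, uc_mul]⟩
  have hinj : Function.Injective m := by
    rintro ⟨a, α, rfl⟩ ⟨b, β, rfl⟩ hab
    have h1 : C.uc (α * α) = C.uc (β * β) := congrArg Subtype.val hab
    apply Subtype.ext
    show α * α = β * β
    set w := α * β⁻¹ with hw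
    have h2 : C.uc (w * w) = 1 := by
      have e1 : w * w = (α * α) * (β * β)⁻¹ := by
        rw [hw, mul_mul_mul_comm, mul_inv]
      have e2 : C.uc (β * β)⁻¹ = (C.uc (β * β))⁻¹ := by
        rw [eq_inv_iff_mul_eq_one, ← uc_mul, inv_mul_cancel]
        simp [uc, uf_one]
      rw [e1, uc_mul, h1, e2, mul_inv_cancel]
    have h3 : C.f ((w * w : Fˣ) : F) ^ 3 * ((w * w : Fˣ) : F) = 1 := by
      have := congrArg (Units.val) h2
      rwa [uc_val] at this
    have h4 := sq_eq_one_of_fix_u C.f C.hff h3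
    have h5 : ((w : F) ^ 2 - 1) * ((w : F) ^ 2 + 1) = 0 := by
      rw [Units.val_mul] at h4
      linear_combination h4
    have h6 : (w : F) ^ 2 = 1 := by
      rcases mul_eq_zero.mp h5 with h7 | h7
      · exact sub_eq_zero.mp h7
      · exact absurd (eq_neg_of_add_eq_zero_left h7) (C.neg_one_nonsq _)
    have h8 : w * w = 1 := by
      apply Units.ext
      rw [Units.val_mul, Units.val_one]
      linear_combination h6
    have h9 : (α * α) * (β * β)⁻¹ = 1 := by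
      rw [← h8, hw, mul_mul_mul_comm, mul_inv]
    exact mul_inv_eq_one.mp h9
  have hsurj := Finite.surjective_of_injective hinj
  obtain ⟨a, ha⟩ := hsurj ⟨ν ^ 2, ⟨ν, by rw [pow_two]⟩⟩
  exact ⟨a.1, congrArg Subtype.val ha⟩

/-- Every element is a value `t² (f t)³`. -/
lemma exists_cube (v : F) : ∃ t : F, t ^ 2 * C.f t ^ 3 = v := by
  by_cases hv : v = 0
  · exact ⟨0, by simp [hv]⟩
  let m : Fˣ → Fˣ := fun l => l ^ 2 * uf C.f l ^ 3
  have hmul : ∀ a b, m (a * b) = m a * m b := by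
    intro a b
    simp only [m, uf_mul, mul_pow]
    exact mul_mul_mul_comm _ _ _ _
  have hone : m 1 = 1 := by simp [m, uf_one]
  have hinj : Function.Injective m := by
    intro a b hab
    have h1 : m (a * b⁻¹) = 1 := by
      have e1 : m b⁻¹ * m b = 1 := by rw [← hmul, inv_mul_cancel, hone]
      rw [hmul, hab, mul_comm, e1]
    have h2 : C.f ((a * b⁻¹ : Fˣ) : F) ^ 3 * ((a * b⁻¹ : Fˣ) : F) ^ 2 = 1 := by
      have := congrArg Units.val h1
      simp only [m, Units.val_mul, Units.val_pow_eq_pow_val, uf_val, Units.val_one] at this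
      rw [← this]
      simp only [Units.val_mul]
      ring
    have h3 := eq_one_of_fix_v C.f C.hff h2
    have h4 : a * b⁻¹ = 1 := Units.ext h3
    exact mul_inv_eq_one.mp h4
  obtain ⟨l, hl⟩ := (Finite.surjective_of_injective hinj) (Units.mk0 v hv)
  refine ⟨l, ?_⟩
  have := congrArg Units.val hl
  simpa [m] using this

/-! ### Rigidity -/

lemma x_law0 (a U V w y : F) : C.x a U V * C.x 0 w y = C.x a (U + w) (V + y) := by
  rw [x_mul]
  simp [map_zero]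

lemma x_commF (t u v t' u' v' : F) : C.x t u v * C.x t' u' v' = C.x t' u' v' * C.x t u v *
    C.x 0 (t' * C.f t ^ 3 - t * C.f t' ^ 3)
      ((v + v' - t' * u + t * t' * C.f t' ^ 3 - t ^ 2 * C.f t' ^ 3) -
        (v' + v - t * u' + t' * t * C.f t ^ 3 - t' ^ 2 * C.f t ^ 3)) := by
  rw [x_mul, x_mul, x_law0, add_comm t' t]
  congr 1
  · ring
  · ring

lemma x_cube_one {t u v : F} (h : C.x t u v ^ 3 = 1) : t = 0 := by
  rw [x_cube, ← x_zero C] at h
  have h1 := (C.x_inj h).2.2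
  have h2 : t ^ 2 * C.f t ^ 3 = 0 := by linear_combination -h1
  rcases mul_eq_zero.mp h2 with h3 | h3
  · exact pow_eq_zero_iff (by norm_num) |>.mp h3
  · have h4 := pow_eq_zero_iff (by norm_num) |>.mp h3
    exact (map_eq_zero C.f).mp h4

lemma x_zero_cube (u v : F) : C.x 0 u v ^ 3 = 1 := by
  rw [x_cube, ← x_zero C]
  simp

lemma h_mem_B (l : Fˣ) : C.h l ∈ Sp.B (UG F e) (HG F e) := Sp.H_le_B (C.h_mem l)

lemma x_mem_B (t u v : F) : C.x t u v ∈ Sp.B (UG F e) (HG F e) := Sp.U_le_B (C.x_mem t u v)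

lemma h_mul_n (l : Fˣ) : C.h l * C.n = C.n * C.h l⁻¹ := by
  have h1 := C.n_conj_h l⁻¹
  rw [inv_inv] at h1
  rw [← h1]
  have hs := C.n_mul_n
  calc C.n * C.h l⁻¹ * C.n * C.n = C.n * C.h l⁻¹ * (C.n * C.n) := by group
    _ = _ := by rw [hs, mul_one]

/-- Fixed points of a torus element on `U`. -/
lemma eq_zero_of_conj {l : Fˣ} (hl : (l : F) ^ 2 ≠ 1) {t u v : F}
    (h : C.h l * C.x t u v * (C.h l)⁻¹ = C.x t u v) : t = 0 ∧ u = 0 ∧ v = 0 := by
  rw [h_conj] at h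
  obtain ⟨h1, h2, h3⟩ := C.x_inj h
  have hl1 : (l : F) ≠ 1 := by
    intro e1
    apply hl
    rw [e1]
    simp
  refine ⟨?_, ?_, ?_⟩
  · have h4 : ((l : F) - 1) * t = 0 := by linear_combination h1
    exact (mul_eq_zero.mp h4).resolve_left (sub_ne_zero.mpr hl1)
  · have h4 : (C.f l ^ 3 * (l : F) - 1) * u = 0 := by linear_combination h2
    refine (mul_eq_zero.mp h4).resolve_left (sub_ne_zero.mpr fun e1 => hl ?_)
    exact sq_eq_one_of_fix_u C.f C.hff e1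
  · have h4 : (C.f l ^ 3 * (l : F) ^ 2 - 1) * v = 0 := by linear_combination h3
    refine (mul_eq_zero.mp h4).resolve_left (sub_ne_zero.mpr fun e1 => hl1 ?_)
    exact eq_one_of_fix_v C.f C.hff e1

/-- An automorphism fixing `U` and `H` elementwise is trivial. -/
theorem eq_one_of_fixB (γ : MulAut (GG F e)) (hU : ∀ t u v, γ (C.x t u v) = C.x t u v)
    (hT : ∀ l, γ (C.h l) = C.h l) : γ = 1 := by
  have S := C.S
  have hBfix : ∀ g ∈ Sp.B (UG F e) (HG F e), γ g = g := by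
    intro g hg
    obtain ⟨u, hu, a, ha, rfl⟩ := S.mem_B.mp hg
    obtain ⟨t, y, v, rfl⟩ := C.mem_U.mp hu
    obtain ⟨l, rfl⟩ := C.mem_H.mp ha
    rw [map_mul, hU, hT]
  obtain ⟨l₀, hl₀⟩ := C.hl
  have hw : γ C.n • Sp.inf (UG F e) (HG F e) = Sp.pt (UG F e) (HG F e) C.n 1 := by
    rcases S.pt_cases (γ C.n • Sp.inf (UG F e) (HG F e)) with h1 | ⟨u, hu, h1⟩
    · exfalso
      have h2 := S.smul_inf_eq.mp h1
      have h3 := hBfix _ h2
      have h4 : γ C.n = C.n := γ.injective h3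
      rw [h4] at h2
      exact S.n_not_mem h2
    · have hcomm : C.h l₀ * γ C.n = γ C.n * C.h l₀⁻¹ := by
        have h2 := congrArg γ (C.h_mul_n l₀)
        rwa [map_mul, map_mul, hT, hT] at h2
      have hfix : C.h l₀ • (γ C.n • Sp.inf (UG F e) (HG F e)) = γ C.n • Sp.inf (UG F e) (HG F e) := by
        rw [← mul_smul, hcomm, mul_smul, S.smul_inf_eq.mpr (C.h_mem_B _)]
      rw [h1, S.smul_pt] at hfix
      have hu' : C.h l₀ * u * (C.h l₀)⁻¹ ∈ UG F e := S.H_U _ (C.h_mem l₀) u hu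
      have e1 : Sp.pt (UG F e) (HG F e) C.n (C.h l₀ * u) = Sp.pt (UG F e) (HG F e) C.n (C.h l₀ * u * (C.h l₀)⁻¹) := by
        rw [Sp.pt, Sp.pt, QuotientGroup.eq]
        have e2 : (C.h l₀ * u * C.n)⁻¹ * (C.h l₀ * u * (C.h l₀)⁻¹ * C.n) = C.n * (C.h l₀)⁻¹ * C.n := by
          rw [mul_inv_rev, mul_inv_rev, S.n_inv]
          group
        rw [e2, h_inv, n_conj_h]
        exact C.h_mem_B _
      rw [e1] at hfix
      have e3 := S.pt_inj hu' hu hfix
      obtain ⟨t, y, v, rfl⟩ := C.mem_U.mp hu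
      obtain ⟨rfl, rfl, rfl⟩ := C.eq_zero_of_conj hl₀ e3
      rw [h1, x_zero]
  have hn : C.n • Sp.inf (UG F e) (HG F e) = Sp.pt (UG F e) (HG F e) C.n 1 := by
    rw [S.smul_inf, Sp.pt, one_mul]
  have hact : ∀ g, γ g • Sp.inf (UG F e) (HG F e) = g • Sp.inf (UG F e) (HG F e) := by
    intro g
    rcases C.bruhat g with ⟨t, u, v, l, rfl⟩ | ⟨t, u, v, l, t', u', v', rfl⟩
    · rw [hBfix _ (mul_mem (C.x_mem_B _ _ _) (C.h_mem_B l))]
    · have hb : ∀ w : GG F e, (w * (C.h l * C.x t' u' v')) • Sp.inf (UG F e) (HG F e) = w • Sp.inf (UG F e) (HG F e) := by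
        intro w
        rw [mul_smul, S.smul_inf_eq.mpr (mul_mem (C.h_mem_B l) (C.x_mem_B _ _ _))]
      have e1 : C.x t u v * C.n * C.h l * C.x t' u' v' = (C.x t u v * C.n) * (C.h l * C.x t' u' v') := by group
      rw [e1, hb, map_mul, map_mul, map_mul, hU, hU, hT, hb, mul_smul, hw, ← hn, ← mul_smul]
  refine MulEquiv.ext fun g => ?_
  show γ g = g
  have hgk : ∀ k : GG F e, k⁻¹ * (g⁻¹ * γ g) * k ∈ Sp.B (UG F e) (HG F e) := by
    intro k
    apply S.smul_inf_eq.mp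
    have e1 : (γ g * k) • Sp.inf (UG F e) (HG F e) = (g * k) • Sp.inf (UG F e) (HG F e) := by
      rw [mul_smul, ← hact k, ← mul_smul, ← map_mul, hact]
    have e2 : k⁻¹ * (g⁻¹ * γ g) * k = (g * k)⁻¹ * (γ g * k) := by group
    rw [e2, mul_smul, e1, inv_smul_smul]
  have hcore := core C.ax C.f C.hf C.hff
  rw [borel_eq C.ax C.f C.hf C.hff] at hcore
  have h1 : g⁻¹ * γ g ∈ (Sp.B (UG F e) (HG F e)).normalCore := by
    intro k
    have := hgk k⁻¹
    rwa [inv_inv] at this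
  rw [hcore, Subgroup.mem_bot] at h1
  exact (inv_mul_eq_one.mp h1).symm

/-- An automorphism fixing `H` and `U` modulo `U'` elementwise is trivial. -/
theorem eq_one_of_fix (γ : MulAut (GG F e)) (hT : ∀ l, γ (C.h l) = C.h l)
    (hUU : ∀ t u v, ∃ t' u' v', γ (C.x t u v) = C.x t' u' v')
    (hA : ∀ t, ∃ u v, γ (C.x t 0 0) = C.x t u v) : γ = 1 := by
  choose P Q hPQ using hA
  have hZ : ∀ v, γ (C.x 0 0 v) = C.x 0 0 v := by
    intro v
    obtain ⟨t, ht⟩ := C.exists_cube (-v)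
    have e1 : C.x 0 0 v = C.x t 0 0 ^ 3 := by rw [x_cube, ht, neg_neg]
    have e2 : C.x t (P t) (Q t) ^ 3 = C.x 0 0 v := by rw [x_cube, ht, neg_neg]
    conv_lhs => rw [e1]
    rw [map_pow, hPQ, e2]
  have hM : ∀ u, ∃ B R, γ (C.x 0 u 0) = C.x 0 B R := by
    intro u
    obtain ⟨t', u', v', h⟩ := hUU 0 u 0
    have h1 : C.x t' u' v' ^ 3 = 1 := by rw [← h, ← map_pow, x_zero_cube, map_one]
    have h2 := C.x_cube_one h1
    exact ⟨u', v', by rw [h, h2]⟩
  choose B R hBR using hM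
  have hadd : ∀ u u', B (u + u') = B u + B u' ∧ R (u + u') = R u + R u' := by
    intro u u'
    have e1 : C.x 0 u 0 * C.x 0 u' 0 = C.x 0 (u + u') 0 := by rw [x_law0, add_zero]
    have e2 := congrArg γ e1
    rw [map_mul, hBR, hBR, hBR, x_law0] at e2
    obtain ⟨-, h2, h3⟩ := C.x_inj e2
    exact ⟨h2.symm, h3.symm⟩
  have hl : ∀ (l : Fˣ) u, B (C.f l ^ 3 * l * u) = C.f l ^ 3 * l * B u ∧
      R (C.f l ^ 3 * l * u) = C.f l ^ 3 * (l : F) ^ 2 * R u := by
    intro l u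
    have e1 : C.h l * C.x 0 u 0 * (C.h l)⁻¹ = C.x 0 (C.f l ^ 3 * l * u) 0 := by
      rw [h_conj, mul_zero, mul_zero]
    have e2 := congrArg γ e1
    rw [map_mul, map_mul, map_inv, hT, hBR, hBR, h_conj, mul_zero] at e2
    obtain ⟨-, h2, h3⟩ := C.x_inj e2
    exact ⟨h2.symm, h3.symm⟩
  have hR : ∀ u, R u = 0 := by
    intro u
    have h1 := (hl (-1) u).2
    simp only [Units.val_neg, Units.val_one, map_neg, map_one] at h1
    have e1 : (-1 : F) ^ 3 * -1 * u = u := by ring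
    have e2 : (-1 : F) ^ 3 * (-1) ^ 2 * R u = - R u := by ring
    rw [e1, e2] at h1
    exact C.eq_zero_of_neg h1
  obtain ⟨a₀, ha₀⟩ := C.hmov
  have hf1 : C.f 1 = 1 := map_one _
  set c₀ : F := a₀ - C.f a₀ ^ 3 with hc₀
  have hc₀ne : c₀ ≠ 0 := fun h0 => ha₀ (sub_eq_zero.mp h0).symm
  have hc : B c₀ = c₀ := by
    have e1 := congrArg γ (C.x_commF 1 0 0 a₀ 0 0)
    rw [map_mul, map_mul, map_mul, hPQ, hPQ, C.x_commF 1 (P 1) (Q 1) a₀ (P a₀) (Q a₀)] at e1
    have e2 := mul_left_cancel e1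
    have e3 : ∀ W, a₀ * C.f 1 ^ 3 - 1 * C.f a₀ ^ 3 = c₀ → γ (C.x 0 c₀ W) = C.x 0 (B c₀) (R c₀ + W) := by
      intro W _
      rw [x_split', map_mul, hBR, hZ, x_law0, add_zero]
    have e4 : a₀ * C.f 1 ^ 3 - 1 * C.f a₀ ^ 3 = c₀ := by rw [hf1, hc₀]; ring
    rw [e4, e3 _ e4] at e2
    exact ((C.x_inj e2).2.1).symm
  have hB0 : B 0 = 0 := by
    have h1 := (hadd 0 0).1
    rw [add_zero] at h1
    exact left_eq_add.mp h1
  have hB : ∀ y, B y = y := by
    intro y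
    by_cases hy : y = 0
    · rw [hy, hB0]
    have hz : y / c₀ ≠ 0 := div_ne_zero hy hc₀ne
    have hval : ∀ ν : Fˣ, ∀ w : F, w = ((ν : F) ^ 2) * c₀ → B w = w := by
      intro ν w hw
      obtain ⟨l, hl'⟩ := C.exists_uc ν
      have h1 : C.f l ^ 3 * (l : F) = (ν : F) ^ 2 := by
        rw [← uc_val, hl']
        simp
      have h2 := (hl l c₀).1
      rw [h1, hc, ← hw] at h2
      exact h2
    rcases C.hns (Units.mk0 _ hz) with ⟨ν, hν⟩ | ⟨ν, hν⟩
    · have e1 : y / c₀ = (ν : F) ^ 2 := by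
        have := congrArg Units.val hν
        simpa using this
      exact hval ν y (by rw [← e1]; field_simp)
    · have e1 : y / c₀ = -(ν : F) ^ 2 := by
        have := congrArg Units.val hν
        simpa using this
      have e2 : y = -((ν : F) ^ 2 * c₀) := by
        have : y = (y / c₀) * c₀ := by field_simp
        rw [this, e1]
        ring
      have e3 := hval ν _ rfl
      rw [e2, C.neg_eq_add, (hadd _ _).1, e3]
  have hMfix : ∀ u v, γ (C.x 0 u v) = C.x 0 u v := by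
    intro u v
    conv_lhs => rw [x_split']
    rw [map_mul, hBR, hZ, hB, hR, x_law0, add_zero, zero_add]
  -- the law for `P`, `Q`
  have hadd2 : ∀ t t', P (t + t') = P t + P t' ∧ Q (t + t') = Q t + Q t' - t' * P t := by
    intro t t'
    have e1 : C.x t 0 0 * C.x t' 0 0 = C.x (t + t') 0 0 * C.x 0 (- (t * C.f t' ^ 3)) (t * t' * C.f t' ^ 3 - t ^ 2 * C.f t' ^ 3) := by
      rw [x_mul, x_law0]
      congr 1 <;> ring
    have e2 := congrArg γ e1
    rw [map_mul, map_mul, hPQ, hPQ, hPQ, hMfix, x_mul, x_law0] at e2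
    obtain ⟨-, h2, h3⟩ := C.x_inj e2
    constructor
    · linear_combination -h2
    · linear_combination -h3
  have hl2 : ∀ (l : Fˣ) t, P (l * t) = C.f l ^ 3 * l * P t ∧ Q (l * t) = C.f l ^ 3 * (l : F) ^ 2 * Q t := by
    intro l t
    have e1 : C.h l * C.x t 0 0 * (C.h l)⁻¹ = C.x (l * t) 0 0 := by
      rw [h_conj, mul_zero, mul_zero]
    have e2 := congrArg γ e1
    rw [map_mul, map_mul, map_inv, hT, hPQ, hPQ, h_conj] at e2
    obtain ⟨-, h2, h3⟩ := C.x_inj e2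
    exact ⟨h2.symm, h3.symm⟩
  have hP0 : P 0 = 0 := by
    have h1 := (hadd2 0 0).1
    rw [add_zero] at h1
    exact left_eq_add.mp h1
  have hP1 : P 1 = 0 := by
    have h1 := (hl2 (-1) 1).1
    simp only [Units.val_neg, Units.val_one, map_neg, map_one] at h1
    have e1 : (-1 : F) * 1 = -1 := by ring
    have e2 : (-1 : F) ^ 3 * -1 * P 1 = P 1 := by ring
    rw [e1, e2] at h1
    have h2 := (hadd2 (-1) 1).1
    rw [neg_add_cancel, hP0, h1] at h2
    apply C.eq_zero_of_neg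
    linear_combination -h2
  have hP : ∀ t, P t = 0 := by
    intro t
    by_cases ht : t = 0
    · rw [ht, hP0]
    have h1 := (hl2 (Units.mk0 t ht) 1).1
    simp only [Units.val_mk0, mul_one, hP1, mul_zero] at h1
    exact h1
  have hQadd : ∀ t t', Q (t + t') = Q t + Q t' := by
    intro t t'
    rw [(hadd2 t t').2, hP]
    ring
  have hQ0 : Q 0 = 0 := by
    have h1 := hQadd 0 0
    rw [add_zero] at h1
    exact left_eq_add.mp h1
  have hQ1 : Q 1 = 0 := by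
    have ha0 : a₀ ≠ 0 := by
      rintro rfl
      apply ha₀
      simp
    have ha1 : a₀ ≠ 1 := by
      rintro rfl
      apply ha₀
      simp
    have ham : a₀ + 1 ≠ 0 := by
      intro h1
      have e1 : a₀ = -1 := eq_neg_of_add_eq_zero_left h1
      apply ha₀
      rw [e1]
      simp only [map_neg, map_one]
      ring
    have h1 := (hl2 (Units.mk0 a₀ ha0) 1).2
    have h2 := (hl2 (Units.mk0 (a₀ + 1) ham) 1).2
    simp only [Units.val_mk0, mul_one] at h1 h2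
    have h3 := hQadd a₀ 1
    rw [h1, h2] at h3
    have hfa : C.f (a₀ + 1) = C.f a₀ + 1 := by simp
    rw [hfa] at h3
    have h4 : ((1 - a₀) * (C.f a₀ ^ 3 - a₀)) * Q 1 = 0 := by
      linear_combination h3 + (-(C.f a₀ ^ 2 + C.f a₀) * (a₀ + 1) ^ 2 * Q 1 -
        (C.f a₀ ^ 3 + 1) * a₀ * Q 1) * C.three
    refine (mul_eq_zero.mp h4).resolve_left (mul_ne_zero (sub_ne_zero.mpr ha1.symm) (sub_ne_zero.mpr ha₀))
  have hQ : ∀ t, Q t = 0 := by
    intro t
    by_cases ht : t = 0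
    · rw [ht, hQ0]
    have h1 := (hl2 (Units.mk0 t ht) 1).2
    simp only [Units.val_mk0, mul_one, hQ1, mul_zero] at h1
    exact h1
  apply C.eq_one_of_fixB γ _ hT
  intro t u v
  rw [x_split, map_mul, hPQ, hP, hQ, hMfix]

/-- `h` as a homomorphism. -/
noncomputable def hHom : Fˣ →* GG F e where
  toFun := C.h
  map_one' := C.h_one
  map_mul' := C.h_mul

lemma h_zpow (l : Fˣ) (k : ℤ) : C.h (l ^ k) = C.h l ^ k := map_zpow C.hHom l k

lemma h_pow (l : Fˣ) (k : ℕ) : C.h (l ^ k) = C.h l ^ k := map_pow C.hHom l k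

/-- An automorphism preserving `U` and the torus is a diagonal times a field automorphism. -/
theorem eq_conj_field (β : MulAut (GG F e)) (hU : ∀ t u v, ∃ t' u' v', β (C.x t u v) = C.x t' u' v')
    (hT : ∀ l, ∃ l', β (C.h l) = C.h l') :
    ∃ (σ : F ≃+* F) (c : Fˣ), β = MulAut.conj (C.h c) * C.fld σ := by
  choose A P Q hAPQ using (fun t => hU t 0 0)
  choose ρ hρ using hT
  have hZ : ∀ u v, ∃ u' v', β (C.x 0 u v) = C.x 0 u' v' := by
    intro u v
    obtain ⟨t', u', v', h⟩ := hU 0 u v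
    have h1 : C.x t' u' v' ^ 3 = 1 := by rw [← h, ← map_pow, x_zero_cube, map_one]
    have h2 := C.x_cube_one h1
    exact ⟨u', v', by rw [h, h2]⟩
  have hadd : ∀ t t', A (t + t') = A t + A t' := by
    intro t t'
    have e1 : C.x t 0 0 * C.x t' 0 0 = C.x (t + t') 0 0 * C.x 0 (- (t * C.f t' ^ 3)) (t * t' * C.f t' ^ 3 - t ^ 2 * C.f t' ^ 3) := by
      rw [x_mul, x_law0]
      congr 1 <;> ring
    obtain ⟨u', v', hz⟩ := hZ (- (t * C.f t' ^ 3)) (t * t' * C.f t' ^ 3 - t ^ 2 * C.f t' ^ 3)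
    have e2 := congrArg β e1
    rw [map_mul, map_mul, hAPQ, hAPQ, hAPQ, hz, x_mul, x_law0] at e2
    exact (C.x_inj e2).1.symm
  have hmul : ∀ (l : Fˣ) t, A (l * t) = ρ l * A t := by
    intro l t
    have e1 : C.h l * C.x t 0 0 * (C.h l)⁻¹ = C.x (l * t) 0 0 := by
      rw [h_conj, mul_zero, mul_zero]
    have e2 := congrArg β e1
    rw [map_mul, map_mul, map_inv, hρ, hAPQ, hAPQ, h_conj] at e2
    exact (C.x_inj e2).1.symm
  have hA0 : A 0 = 0 := by
    have h1 := hadd 0 0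
    rw [add_zero] at h1
    exact left_eq_add.mp h1
  have hc0 : A 1 ≠ 0 := by
    intro h0
    have h1 : β (C.x 1 0 0 ^ 3) = 1 := by
      rw [map_pow, hAPQ, h0, x_zero_cube]
    have h2 : C.x 1 0 0 ^ 3 = 1 := by
      apply β.injective
      rw [h1, map_one]
    exact one_ne_zero (C.x_cube_one h2)
  let cu : Fˣ := Units.mk0 (A 1) hc0
  have hcu : (cu : F) = A 1 := rfl
  have hρ' : ∀ l : Fˣ, A (l : F) = (ρ l : F) * A 1 := by
    intro l
    have := hmul l 1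
    rwa [mul_one] at this
  let s : F →+* F :=
    { toFun := fun x => A x * (A 1)⁻¹
      map_one' := mul_inv_cancel₀ hc0
      map_mul' := by
        intro x y
        by_cases hx : x = 0
        · subst hx
          simp [hA0]
        · have h1 := hmul (Units.mk0 x hx) y
          have h2 := hρ' (Units.mk0 x hx)
          simp only [Units.val_mk0] at h1 h2
          rw [h1, h2]
          field_simp
      map_zero' := by simp [hA0]
      map_add' := by
        intro x y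
        rw [hadd]
        ring }
  let σ : F ≃+* F := RingEquiv.ofBijective s ⟨s.injective, Finite.surjective_of_injective s.injective⟩
  have hσ : ∀ x, σ x = A x * (A 1)⁻¹ := fun _ => rfl
  refine ⟨σ, cu, ?_⟩
  let X : MulAut (GG F e) := MulAut.conj (C.h cu) * C.fld σ
  have hX : ∀ z, X z = C.h cu * C.fld σ z * (C.h cu)⁻¹ := fun _ => rfl
  let γ : MulAut (GG F e) := X⁻¹ * β
  have key : ∀ y z, β y = X z → γ y = z := by
    intro y z h
    show X⁻¹ (β y) = z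
    rw [h]
    exact MulEquiv.symm_apply_apply X z
  have hc2 : C.f (cu : F) ^ 3 * (cu : F) ≠ 0 :=
    mul_ne_zero (pow_ne_zero _ ((map_ne_zero C.f).mpr cu.ne_zero)) cu.ne_zero
  have hc3 : C.f (cu : F) ^ 3 * (cu : F) ^ 2 ≠ 0 :=
    mul_ne_zero (pow_ne_zero _ ((map_ne_zero C.f).mpr cu.ne_zero)) (pow_ne_zero _ cu.ne_zero)
  have hXx : ∀ t u v, X (C.x t u v) =
      C.x (cu * σ t) (C.f (cu : F) ^ 3 * cu * σ u) (C.f (cu : F) ^ 3 * (cu : F) ^ 2 * σ v) := by
    intro t u v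
    rw [hX, fld_x, h_conj]
  have hγ : γ = 1 := by
    apply C.eq_one_of_fix
    · intro l
      apply key
      rw [hX, fld_h, h_comm, mul_assoc, mul_inv_cancel, mul_one, hρ]
      congr 1
      apply Units.ext
      show (ρ l : F) = σ (l : F)
      rw [hσ, hρ', mul_assoc, mul_inv_cancel₀ hc0, mul_one]
    · intro t u v
      obtain ⟨a, b, c, h⟩ := hU t u v
      refine ⟨σ.symm (a / cu), σ.symm (b / (C.f (cu : F) ^ 3 * cu)),
        σ.symm (c / (C.f (cu : F) ^ 3 * (cu : F) ^ 2)), ?_⟩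
      apply key
      rw [hXx, h, RingEquiv.apply_symm_apply, RingEquiv.apply_symm_apply, RingEquiv.apply_symm_apply]
      have e1 : (cu : F) * (a / cu) = a := by field_simp
      have e2 : C.f (cu : F) ^ 3 * cu * (b / (C.f (cu : F) ^ 3 * cu)) = b := mul_div_cancel₀ _ hc2
      have e3 : C.f (cu : F) ^ 3 * (cu : F) ^ 2 * (c / (C.f (cu : F) ^ 3 * (cu : F) ^ 2)) = c := mul_div_cancel₀ _ hc3
      rw [e1, e2, e3]
    · intro t
      refine ⟨σ.symm (P t / (C.f (cu : F) ^ 3 * cu)), σ.symm (Q t / (C.f (cu : F) ^ 3 * (cu : F) ^ 2)), ?_⟩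
      apply key
      rw [hXx, hAPQ, RingEquiv.apply_symm_apply, RingEquiv.apply_symm_apply]
      have e1 : (cu : F) * σ t = A t := by
        rw [hσ, hcu]
        field_simp
      have e2 : C.f (cu : F) ^ 3 * cu * (P t / (C.f (cu : F) ^ 3 * cu)) = P t := mul_div_cancel₀ _ hc2
      have e3 : C.f (cu : F) ^ 3 * (cu : F) ^ 2 * (Q t / (C.f (cu : F) ^ 3 * (cu : F) ^ 2)) = Q t := mul_div_cancel₀ _ hc3
      rw [e1, e2, e3]
  exact (inv_mul_eq_one.mp hγ).symm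

lemma x_pow_nine (t u v : F) : C.x t u v ^ 9 = 1 := by
  have : (9 : ℕ) = 3 * 3 := by norm_num
  rw [this, pow_mul, x_cube, x_zero_cube]

/-- Every automorphism is inner times one preserving `U` and the torus. -/
theorem exists_normalized (α : MulAut (GG F e)) :
    ∃ (g : GG F e) (β : MulAut (GG F e)), α = MulAut.conj g * β ∧
      (∀ t u v, ∃ t' u' v', β (C.x t u v) = C.x t' u' v') ∧ (∀ l, ∃ l', β (C.h l) = C.h l') := by
  classical
  haveI : Fact (Nat.Prime 3) := ⟨Nat.prime_three⟩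
  have S := C.S
  let P : Sylow 3 (GG F e) := C.hP.toSylow C.hI
  have hPc : (P : Subgroup (GG F e)) = UG F e := rfl
  obtain ⟨g, hg⟩ := MulAction.exists_smul_eq (GG F e) (α • P) P
  have hmem : ∀ x ∈ UG F e, g * α x * g⁻¹ ∈ UG F e := by
    intro x hx
    have h1 : (P : Subgroup (GG F e)) = MulAut.conj g • (α • (P : Subgroup (GG F e))) := by
      conv_lhs => rw [← hg]
      rfl
    rw [← hPc, h1, Subgroup.mem_smul_pointwise_iff_exists]
    refine ⟨α x, ?_, rfl⟩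
    rw [Subgroup.mem_smul_pointwise_iff_exists]
    refine ⟨x, ?_, rfl⟩
    exact hx
  let β₁ : MulAut (GG F e) := MulAut.conj g * α
  have hβ₁ : ∀ x, β₁ x = g * α x * g⁻¹ := fun _ => rfl
  have hβ₁U : ∀ x ∈ UG F e, β₁ x ∈ UG F e := hmem
  obtain ⟨ζ, hζ, hζ18⟩ := C.hgen
  set t := β₁ (C.h ζ) with ht
  have hx1 : C.x 1 0 0 ≠ 1 := by
    intro h
    rw [← x_zero C] at h
    exact one_ne_zero (C.x_inj h).1
  have htB : t ∈ Sp.B (UG F e) (HG F e) := by
    by_contra hn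
    have hu1 : β₁ (C.x 1 0 0) ≠ 1 := by
      intro h
      exact hx1 (β₁.injective (by rw [h, map_one]))
    have h3 : t * β₁ (C.x 1 0 0) * t⁻¹ ∈ UG F e := by
      rw [ht, ← map_inv, ← map_mul, ← map_mul, h_conj]
      exact hβ₁U _ (C.x_mem _ _ _)
    exact hu1 (S.U_inf_conj hn (hβ₁U _ (C.x_mem _ _ _)) h3)
  obtain ⟨u₀, hu₀, a₀, ha₀, eq0⟩ := S.mem_B.mp htB
  obtain ⟨a₁, a₂, a₃, rfl⟩ := C.mem_U.mp hu₀
  obtain ⟨l, rfl⟩ := C.mem_H.mp ha₀
  have hl2 : (l : F) ^ 2 ≠ 1 := by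
    intro h2
    have h3 : l * l = 1 := by
      apply Units.ext
      rw [Units.val_mul, Units.val_one]
      linear_combination h2
    have h4 : t * t ∈ UG F e := by
      rw [eq0]
      have e1 : C.x a₁ a₂ a₃ * C.h l * (C.x a₁ a₂ a₃ * C.h l) =
          C.x a₁ a₂ a₃ * (C.h l * C.x a₁ a₂ a₃ * (C.h l)⁻¹) * (C.h l * C.h l) := by group
      rw [e1, ← h_mul, h3, h_one, mul_one, h_conj]
      exact mul_mem (C.x_mem _ _ _) (C.x_mem _ _ _)
    obtain ⟨b₁, b₂, b₃, h5⟩ := C.mem_U.mp h4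
    have h6 := C.x_pow_nine b₁ b₂ b₃
    rw [← h5, ht, ← map_mul, ← map_pow, ← h_mul, ← pow_two, ← h_pow, ← pow_mul] at h6
    have h7 : C.h (ζ ^ 18) = 1 := by
      apply β₁.injective
      rw [map_one, ← h6]
    apply hζ18
    exact C.h_inj (h7.trans C.h_one.symm)
  have hl1 : (l : F) ≠ 1 := by
    intro e1
    apply hl2
    rw [e1]
    simp
  have hd1 : (1 : F) - l ≠ 0 := sub_ne_zero.mpr hl1.symm
  have hd2 : (1 : F) - C.f l ^ 3 * l ≠ 0 := by
    refine sub_ne_zero.mpr fun e1 => hl2 ?_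
    exact sq_eq_one_of_fix_u C.f C.hff e1.symm
  have hd3 : (1 : F) - C.f l ^ 3 * (l : F) ^ 2 ≠ 0 := by
    refine sub_ne_zero.mpr fun e1 => hl1 ?_
    exact eq_one_of_fix_v C.f C.hff e1.symm
  set x₁ : F := a₁ / (1 - l) with hx₁
  set t₂ : F := l * x₁ with ht₂
  set x₂ : F := (a₂ - a₁ * C.f t₂ ^ 3) / (1 - C.f l ^ 3 * l) with hx₂
  set x₃ : F := (a₃ - t₂ * a₂ + a₁ * t₂ * C.f t₂ ^ 3 - a₁ ^ 2 * C.f t₂ ^ 3) / (1 - C.f l ^ 3 * (l : F) ^ 2) with hx₃
  set y := C.x x₁ x₂ x₃ with hy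
  have hsol : C.x a₁ a₂ a₃ * (C.h l * y * (C.h l)⁻¹) = y := by
    rw [hy, h_conj, x_mul]
    have e1 : a₁ + ↑l * x₁ = x₁ := by
      rw [hx₁]
      field_simp
      ring
    have e2 : a₂ + C.f ↑l ^ 3 * ↑l * x₂ - a₁ * C.f (↑l * x₁) ^ 3 = x₂ := by
      rw [← ht₂, hx₂]
      field_simp
      ring
    have e3 : a₃ + C.f ↑l ^ 3 * ↑l ^ 2 * x₃ - ↑l * x₁ * a₂ + a₁ * (↑l * x₁) * C.f (↑l * x₁) ^ 3 -
        a₁ ^ 2 * C.f (↑l * x₁) ^ 3 = x₃ := by
      rw [← ht₂, hx₃]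
      field_simp
      ring
    rw [e1, e2, e3]
  let β : MulAut (GG F e) := MulAut.conj y⁻¹ * β₁
  have hβ : ∀ z, β z = y⁻¹ * β₁ z * y := by
    intro z
    show y⁻¹ * β₁ z * y⁻¹⁻¹ = _
    rw [inv_inv]
  have hβζ : β (C.h ζ) = C.h l := by
    rw [hβ, ← ht, eq0]
    calc y⁻¹ * (C.x a₁ a₂ a₃ * C.h l) * y = y⁻¹ * (C.x a₁ a₂ a₃ * (C.h l * y * (C.h l)⁻¹)) * C.h l := by group
      _ = C.h l := by rw [hsol]; group
  refine ⟨g⁻¹ * y, β, ?_, ?_, ?_⟩
  · refine MulEquiv.ext fun w => ?_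
    show α w = (g⁻¹ * y) * β w * (g⁻¹ * y)⁻¹
    rw [hβ, hβ₁]
    group
  · intro a' b' c'
    have h5 : β (C.x a' b' c') ∈ UG F e := by
      rw [hβ]
      have h6 := hβ₁U _ (C.x_mem a' b' c')
      have h7 : y ∈ UG F e := C.x_mem _ _ _
      exact mul_mem (mul_mem (inv_mem h7) h6) h7
    exact C.mem_U.mp h5
  · intro l''
    obtain ⟨k, hk⟩ := hζ l''
    refine ⟨l ^ k, ?_⟩
    have hk' : ζ ^ k = l'' := hk
    rw [← hk', h_zpow, map_zpow, hβζ, h_zpow]

include C in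
/-- A field automorphism is inner only if it is trivial. -/
theorem conj_eq_field {k : GG F e} {τ : F ≃+* F} (h : MulAut.conj k = C.fld τ) : k = 1 ∧ τ = 1 := by
  have S := C.S
  have hconj : ∀ z, k * z * k⁻¹ = C.fld τ z := fun z => by rw [← h]; rfl
  have hx1 : C.x 1 0 0 ≠ 1 := by
    intro h
    rw [← x_zero C] at h
    exact one_ne_zero (C.x_inj h).1
  have hkB : k ∈ Sp.B (UG F e) (HG F e) := by
    by_contra hn
    refine hx1 (S.U_inf_conj hn (C.x_mem 1 0 0) ?_)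
    rw [hconj, fld_x]
    exact C.x_mem _ _ _
  obtain ⟨u, hu, a, ha, rfl⟩ := S.mem_B.mp hkB
  obtain ⟨a₁, a₂, a₃, rfl⟩ := C.mem_U.mp hu
  obtain ⟨l, rfl⟩ := C.mem_H.mp ha
  have hτ : ∀ l' : Fˣ, Units.map (τ : F →* F) l' = l' := by
    intro l'
    have h1 := hconj (C.h l')
    rw [fld_h] at h1
    have e1 : C.x a₁ a₂ a₃ * C.h l * C.h l' * (C.x a₁ a₂ a₃ * C.h l)⁻¹ =
        C.x a₁ a₂ a₃ * (C.h l' * (C.x a₁ a₂ a₃)⁻¹ * (C.h l')⁻¹) * C.h l' := by
      have e2 : C.h l * C.h l' * (C.h l)⁻¹ = C.h l' := by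
        rw [h_comm, mul_assoc, mul_inv_cancel, mul_one]
      calc C.x a₁ a₂ a₃ * C.h l * C.h l' * (C.x a₁ a₂ a₃ * C.h l)⁻¹
          = C.x a₁ a₂ a₃ * (C.h l * C.h l' * (C.h l)⁻¹) * (C.x a₁ a₂ a₃)⁻¹ := by group
        _ = _ := by rw [e2]; group
    rw [e1] at h1
    have h2 : C.h (Units.map (τ : F →* F) l') * (C.h l')⁻¹ ∈ UG F e := by
      rw [← h1, mul_inv_cancel_right]
      refine mul_mem (C.x_mem _ _ _) (S.H_U _ (C.h_mem l') _ (inv_mem (C.x_mem _ _ _)))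
    have h3 : C.h (Units.map (τ : F →* F) l') * (C.h l')⁻¹ ∈ HG F e :=
      mul_mem (C.h_mem _) (inv_mem (C.h_mem _))
    have h4 := S.U_H _ h2 h3
    exact C.h_inj (mul_inv_eq_one.mp h4)
  have hτ1 : τ = 1 := by
    refine RingEquiv.ext fun a => ?_
    by_cases ha : a = 0
    · rw [ha]
      simp
    · have := congrArg Units.val (hτ (Units.mk0 a ha))
      simpa using this
  subst hτ1
  refine ⟨?_, rfl⟩
  have h1 : C.x a₁ a₂ a₃ * C.h l ∈ Subgroup.center (GG F e) := by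
    rw [Subgroup.mem_center_iff]
    intro z
    have h2 := hconj z
    rw [fld_one] at h2
    have h3 : (1 : MulAut (GG F e)) z = z := rfl
    rw [h3] at h2
    exact (mul_inv_eq_iff_eq_mul.mp h2).symm
  rw [C.hcen, Subgroup.mem_bot] at h1
  exact h1

/-- Parametrisation of the automorphism group. -/
noncomputable def Φ (x : GG F e × (F ≃+* F)) : MulAut (GG F e) := MulAut.conj x.1 * C.fld x.2

theorem Φ_bijective : Function.Bijective C.Φ := by
  constructor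
  · rintro ⟨h, σ⟩ ⟨h', σ'⟩ e
    have e' : MulAut.conj h * C.fld σ = MulAut.conj h' * C.fld σ' := e
    have h1 : MulAut.conj (h'⁻¹ * h) = C.fld (σ' * σ⁻¹) := by
      rw [fld_mul, fld_inv, map_mul, map_inv, eq_mul_inv_iff_mul_eq, mul_assoc, e']
      group
    obtain ⟨h2, h3⟩ := C.conj_eq_field h1
    have h4 : h = h' := by
      rw [inv_mul_eq_one] at h2
      exact h2.symm
    have h5 : σ = σ' := by
      rw [mul_inv_eq_one] at h3
      exact h3.symm
    rw [h4, h5]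
  · intro α
    obtain ⟨g, β, rfl, hU, hT⟩ := C.exists_normalized α
    obtain ⟨σ, c, rfl⟩ := C.eq_conj_field β hU hT
    refine ⟨(g * C.h c, σ), ?_⟩
    show MulAut.conj (g * C.h c) * C.fld σ = _
    rw [map_mul, mul_assoc]

include C in
theorem card_out_aux {m : ℕ} (hF : Fintype.card F = 3 ^ (2 * m + 1)) :
    Nat.card (Cfsg.Out (GG F e)) = 2 * m + 1 := by
  haveI : Fact (Nat.Prime 3) := ⟨Nat.prime_three⟩
  haveI : Finite (GG F e) := inferInstance
  have h1 := Cfsg.Agent.Lib.Classical.OmegaOut.card_out C.hcen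
  rw [← Nat.card_congr (Equiv.ofBijective _ C.Φ_bijective), Nat.card_prod,
    Cfsg.Agent.Lib.KS71.PSLAutGroup.card_ringEquiv hF (by omega), mul_comm (Nat.card (GG F e))] at h1
  exact Nat.eq_of_mul_eq_mul_right Nat.card_pos h1

end Ctx

section Final

variable {K : Type*} [Field K] [Fintype K] {m : ℕ}

theorem mk_ctx (hm : 1 ≤ m) (hK : Fintype.card K = 3 ^ (2 * m + 1)) [CharP K 3] : Nonempty (Ctx K (3 ^ m)) := by
  obtain ⟨hc, f, hf, hff, ax, hns⟩ := exists_ctx hK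
  haveI : Fact (Nat.Prime 3) := ⟨Nat.prime_three⟩
  obtain ⟨g, hg⟩ := IsCyclic.exists_generator (α := Kˣ)
  have hord : orderOf g = 3 ^ (2 * m + 1) - 1 := by
    rw [orderOf_eq_card_of_forall_mem_zpowers hg, Nat.card_units, natcard hK]
  have h27 : 27 ≤ 3 ^ (2 * m + 1) := calc
    27 = 3 ^ 3 := by norm_num
    _ ≤ _ := Nat.pow_le_pow_right (by norm_num) (by omega)
  have hmov : ∃ a : K, f a ^ 3 ≠ a := by
    refine ⟨g, fun h1 => ?_⟩
    rw [hf, ← pow_mul, ← pow_succ] at h1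
    have h2 : g ^ (3 ^ (m + 1) - 1) = 1 := by
      apply Units.ext
      have h3 : (g : K) ^ (3 ^ (m + 1) - 1) * g = g := by
        rw [← pow_succ]
        have : 3 ^ (m + 1) - 1 + 1 = 3 ^ (m + 1) := Nat.sub_add_cancel (Nat.one_le_pow _ _ (by norm_num))
        rw [this]
        exact h1
      have h4 : (g : K) ≠ 0 := g.ne_zero
      simpa using mul_right_cancel₀ h4 (h3.trans (one_mul _).symm)
    have h3 := Nat.le_of_dvd (by
      have : 3 ^ 1 < 3 ^ (m + 1) := Nat.pow_lt_pow_right (by norm_num) (by omega)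
      omega) (orderOf_dvd_of_pow_eq_one h2)
    rw [hord] at h3
    have h5 : 3 ^ (m + 1) < 3 ^ (2 * m + 1) := Nat.pow_lt_pow_right (by norm_num) (by omega)
    have h6 : 1 ≤ 3 ^ (m + 1) := Nat.one_le_pow _ _ (by norm_num)
    omega
  have hgen : ∃ ζ : Kˣ, (∀ l : Kˣ, l ∈ Subgroup.zpowers ζ) ∧ ¬ (ζ ^ 18 = 1) := by
    refine ⟨g, hg, fun h1 => ?_⟩
    have h3 := Nat.le_of_dvd (by norm_num) (orderOf_dvd_of_pow_eq_one h1)
    rw [hord] at h3
    omega
  have S := spR ax f hf hff hns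
  have e1 : Nat.card (UG K (3 ^ m)) = (3 ^ (2 * m + 1)) ^ 3 := by
    rw [← card_U1' hK]
    exact Nat.card_congr (Subgroup.subgroupOfEquivOfLe inf_le_right).toEquiv
  have e2 : Nat.card (HG K (3 ^ m)) = 3 ^ (2 * m + 1) - 1 := by
    rw [← res1114 hK]
    exact Nat.card_congr (Subgroup.subgroupOfEquivOfLe inf_le_right).toEquiv
  haveI : Finite (UG K (3 ^ m)) := Nat.finite_of_card_ne_zero (by rw [e1]; positivity)
  have hU : IsPGroup 3 (UG K (3 ^ m)) := by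
    apply IsPGroup.of_card (n := (2 * m + 1) * 3)
    rw [e1, pow_mul]
  have hidx : ¬ 3 ∣ (UG K (3 ^ m)).index := by
    have h1 := Subgroup.card_mul_index (UG K (3 ^ m))
    rw [S.card_G, e1, e2] at h1
    have hpos : 0 < (3 ^ (2 * m + 1)) ^ 3 := by positivity
    have h2 : (UG K (3 ^ m)).index = (3 ^ (2 * m + 1) - 1) * ((3 ^ (2 * m + 1)) ^ 3 + 1) := by
      apply Nat.eq_of_mul_eq_mul_left hpos
      rw [h1, mul_assoc]
    rw [h2]
    have h3 : 3 ∣ 3 ^ (2 * m + 1) := dvd_pow_self _ (by omega)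
    have h4 : 3 ∣ (3 ^ (2 * m + 1)) ^ 3 := dvd_pow h3 (by norm_num)
    have h5 : 1 ≤ 3 ^ (2 * m + 1) := Nat.one_le_pow _ _ (by norm_num)
    intro hd
    rcases (Nat.prime_three.dvd_mul).mp hd with hd | hd
    · omega
    · omega
  have hcen : Subgroup.center ↥(twistedG2 K (3 ^ m)) = ⊥ := by
    obtain ⟨hs, hna⟩ := res1073 hm hK
    haveI := hs
    rcases (Subgroup.center ↥(twistedG2 K (3 ^ m))).normal_of_characteristic.eq_bot_or_eq_top with h | h
    · exact h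
    · exfalso
      apply hna
      refine ⟨⟨fun a b => ?_⟩⟩
      have : (a : ↥(twistedG2 K (3 ^ m))) ∈ Subgroup.center ↥(twistedG2 K (3 ^ m)) := by
        rw [h]
        trivial
      exact ((Subgroup.mem_center_iff.mp this) b).symm
  exact ⟨⟨ax, f, hf, hff, hns, hmov, exists_l hm hK, hgen, hU, hidx, hcen⟩⟩

/-- The main theorem. -/
theorem main (hm : 1 ≤ m) (hK : Fintype.card K = 3 ^ (2 * m + 1)) :
    Nat.card (Cfsg.Out ↥(twistedG2 K (3 ^ m))) = 2 * m + 1 := by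
  haveI : CharP K 3 := charP_of_card hK
  obtain ⟨C⟩ := mk_ctx hm hK
  exact C.card_out_aux hK

end Final

end Cfsg.Agent.Lib.ReeG2.OutR
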