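import Mathlib
import Cfsg.Agent.Lib.Schur.Stem

/-!
# Bi-additive forms over fields of characteristic three, and commutator forms of central extensions

Abstract material for the triviality of the Schur multiplier of the small Ree groups.
-/

set_option autoImplicit false
set_option linter.unusedSectionVars false
set_option linter.unusedVariables false
set_option linter.style.haveILetI false

namespace Cfsg.Agent.Lib.ReeG2.Sch1

open Cfsg
open scoped commutatorElement

section Forms

variable {F : Type*} [Field F] [CharP F 3]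

lemma three_zero : (3 : F) = 0 := by exact_mod_cast CharP.cast_eq_zero F 3

lemma add3 (x : F) : x + x + x = 0 := by
  have h := three_zero (F := F)
  linear_combination x * h

variable [Fintype F]

/-- Scale-invariant bi-additive forms on a field of characteristic three with at least four
elements vanish. -/
theorem form3_eq_one {A : Type*} [CommGroup A] (hq : 4 ≤ Fintype.card F) (E : F → F → A)
    (hl : ∀ a a' b, E (a + a') b = E a b * E a' b)
    (hr : ∀ a b b', E a (b + b') = E a b * E a b')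
    (hs : ∀ l : F, l ≠ 0 → ∀ a b, E (l * a) (l * b) = E a b) :
    ∀ a b, E a b = 1 := by
  classical
  set g : F → A := fun w => E 1 w with hg
  set ψ : F → A := fun y => E y 1 with hψ
  have hgadd : ∀ x y, g (x + y) = g x * g y := fun x y => hr 1 x y
  have hψadd : ∀ x y, ψ (x + y) = ψ x * ψ y := fun x y => hl x y 1
  have hg0 : g 0 = 1 := by
    have h := hgadd 0 0
    rw [add_zero] at h
    exact (mul_eq_left.1 h.symm)
  have hgneg : ∀ x, g (-x) = (g x)⁻¹ := by
    intro x
    have h := hgadd x (-x)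
    rw [add_neg_cancel, hg0] at h
    exact (inv_eq_of_mul_eq_one_right h.symm).symm
  have hgsub : ∀ x y, g (x - y) = g x * (g y)⁻¹ := by
    intro x y
    rw [sub_eq_add_neg, hgadd, hgneg]
  have hg3 : ∀ x, g x * g x * g x = 1 := by
    intro x
    rw [← hgadd, ← hgadd, add3, hg0]
  have hψg : ∀ y : F, y ≠ 0 → ψ y = g y⁻¹ := by
    intro y hy
    have h := hs y hy 1 y⁻¹
    rw [mul_one, mul_inv_cancel₀ hy] at h
    exact h
  have hua : ∀ x y : F, x ≠ 0 → y ≠ 0 → x * y ≠ 1 → g (x * x * y) * g y⁻¹ = g x := by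
    intro x y hx hy hxy
    have hxy' : 1 - x * y ≠ 0 := by
      intro h
      apply hxy
      linear_combination -h
    have he : y⁻¹ - x ≠ 0 := by
      intro h
      apply hxy'
      have : y * (y⁻¹ - x) = 1 - x * y := by
        rw [mul_sub, mul_inv_cancel₀ hy, mul_comm y x]
      rw [← this, h, mul_zero]
    set D := x⁻¹ + (y⁻¹ - x)⁻¹ with hD
    have hDe : D⁻¹ = x - x * x * y := by
      have h1 : D = (x * (1 - x * y))⁻¹ := by
        rw [hD]
        field_simp
        ring
      rw [h1, inv_inv]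
      ring
    have hD0 : D ≠ 0 := by
      intro h
      rw [h, inv_zero] at hDe
      have : x * (1 - x * y) = 0 := by linear_combination -hDe
      exact (mul_ne_zero hx hxy') this
    have e1 : ψ D = g x * (g (x * x * y))⁻¹ := by
      rw [hψg D hD0, hDe, hgsub]
    have e2 : ψ D = g x * (g y⁻¹ * (g x)⁻¹) := by
      rw [hD, hψadd, hψg _ (inv_ne_zero hx), inv_inv, hψg _ (inv_ne_zero he), inv_inv, hgsub]
    have e3 := mul_left_cancel (e1.symm.trans e2)
    have e4 : g (x * x * y) = g x * (g y⁻¹)⁻¹ := by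
      rw [← inv_inv (g (x * x * y)), e3, mul_inv, inv_inv, mul_comm]
    rw [e4, inv_mul_cancel_right]
  have hgall : ∀ x, g x = 1 := by
    intro x
    by_cases hx : x = 0
    · rw [hx, hg0]
    obtain ⟨y, hy⟩ : ∃ y : F, y ∉ ({0, x⁻¹, -x⁻¹} : Finset F) := by
      by_contra hcon
      push Not at hcon
      have h1 : (Finset.univ : Finset F) ⊆ {0, x⁻¹, -x⁻¹} := fun z _ => hcon z
      have h2 := Finset.card_le_card h1
      have h3 : ({0, x⁻¹, -x⁻¹} : Finset F).card ≤ 3 := Finset.card_le_three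
      rw [Finset.card_univ] at h2
      omega
    simp only [Finset.mem_insert, Finset.mem_singleton, not_or] at hy
    obtain ⟨hy0, hy1, hy2⟩ := hy
    have h1 := hua x y hx hy0 (by
      intro h
      apply hy1
      field_simp
      rw [mul_comm]
      exact h)
    have h2 := hua (-x) y (neg_ne_zero.2 hx) hy0 (by
      intro h
      apply hy2
      field_simp
      linear_combination -h)
    rw [neg_mul_neg, h1, hgneg] at h2
    have h3 : g x * g x = 1 := by
      nth_rewrite 1 [h2]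
      exact inv_mul_cancel _
    have h4 := hg3 x
    rw [h3, one_mul] at h4
    exact h4
  intro a b
  by_cases ha : a = 0
  · have h := hl 0 0 b
    rw [add_zero] at h
    rw [ha]
    exact (mul_eq_left.1 h.symm)
  · have h := hs a ha 1 (a⁻¹ * b)
    rw [mul_one, ← mul_assoc, mul_inv_cancel₀ ha, one_mul] at h
    rw [h]
    exact hgall _

/-- The arithmetic behind `form6_eq_one`. -/
lemma arith6 {l s A : F} (h0 : s * l ^ 2 * A = 1) (h1 : (s + 1) * (l + 1) ^ 2 * (A + 1) = 1)
    (h2 : (s - 1) * (l - 1) ^ 2 * (A - 1) = 1) : (l ^ 2 + 1) * (l ^ 4 + 1) = 0 := by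
  have h3 := three_zero (F := F)
  linear_combination (2 * l ^ 2 * (l - 1) ^ 2) * h1 + (2 * l ^ 2 * (l + 1) ^ 2) * h2
    - ((l ^ 2 - 1) ^ 2) * h0
    + (-l ^ 2 * ((s * A + 1) * (l ^ 2 - 1) ^ 2 - (l ^ 2 + 1)) + l ^ 2 * (l ^ 2 + 1)) * h3

/-- Bi-additive forms invariant under `(t, b) ↦ (l t, s(l) l² b)` vanish. -/
theorem form6_eq_one {A : Type*} [CommGroup A] (s : F →+* F) (hq : 4 ≤ Fintype.card F)
    (hsq : ∀ x : F, x * x ≠ -1) (E : F → F → A)
    (hl : ∀ a a' b, E (a + a') b = E a b * E a' b)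
    (hr : ∀ a b b', E a (b + b') = E a b * E a b')
    (hs : ∀ l : F, l ≠ 0 → ∀ t b, E (l * t) (s l * l ^ 2 * b) = E t b) :
    ∀ a b, E a b = 1 := by
  classical
  set g : F → A := fun w => E 1 w with hg
  have hgadd : ∀ x y, g (x + y) = g x * g y := fun x y => hr 1 x y
  have hg0 : g 0 = 1 := by
    have h := hgadd 0 0
    rw [add_zero] at h
    exact (mul_eq_left.1 h.symm)
  have hgneg : ∀ x, g (-x) = (g x)⁻¹ := by
    intro x
    have h := hgadd x (-x)
    rw [add_neg_cancel, hg0] at h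
    exact (inv_eq_of_mul_eq_one_right h.symm).symm
  have hgsub : ∀ x y, g (x - y) = g x * (g y)⁻¹ := by
    intro x y
    rw [sub_eq_add_neg, hgadd, hgneg]
  set AA : F → F := fun l => (s l * l ^ 2)⁻¹ with hAA
  have hc0 : ∀ l : F, l ≠ 0 → s l * l ^ 2 ≠ 0 := fun l h =>
    mul_ne_zero ((map_ne_zero s).2 h) (pow_ne_zero _ h)
  have hE : ∀ l : F, l ≠ 0 → ∀ b, E l b = g (b * AA l) := by
    intro l hl0 b
    have h := hs l hl0 1 (b * AA l)
    rw [mul_one] at h
    have e : s l * l ^ 2 * (b * AA l) = b := by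
      show s l * l ^ 2 * (b * (s l * l ^ 2)⁻¹) = b
      rw [mul_comm b, ← mul_assoc, mul_inv_cancel₀ (hc0 l hl0), one_mul]
    rw [e] at h
    exact h
  obtain ⟨l, hl'⟩ : ∃ l : F, l ∉ ({0, 1, -1} : Finset F) := by
    by_contra hcon
    push Not at hcon
    have h1 : (Finset.univ : Finset F) ⊆ {0, 1, -1} := fun z _ => hcon z
    have h2 := Finset.card_le_card h1
    have h3 : ({0, 1, -1} : Finset F).card ≤ 3 := Finset.card_le_three
    rw [Finset.card_univ] at h2
    omega
  simp only [Finset.mem_insert, Finset.mem_singleton, not_or] at hl'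
  obtain ⟨hl0, hl1, hl2⟩ := hl'
  have hp : l + 1 ≠ 0 := fun h => hl2 (by linear_combination h)
  have hm : l - 1 ≠ 0 := fun h => hl1 (by linear_combination h)
  have hn1 : (-1 : F) ≠ 0 := neg_ne_zero.2 one_ne_zero
  have hA1 : AA 1 = 1 := by simp [hAA]
  have hAn : AA (-1) = -1 := by
    simp [hAA, map_neg]
  have hkey : ∀ d : F, d ≠ 0 → (∀ b, g (b * d) = 1) → ∀ w, g w = 1 := by
    intro d hd h w
    have := h (w * d⁻¹)
    rwa [mul_assoc, inv_mul_cancel₀ hd, mul_one] at this
  have hp1 : ∀ b, g (b * (AA (l + 1) - AA l - 1)) = 1 := by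
    intro b
    have h := hl l 1 b
    rw [hE _ hp, hE _ hl0, hE _ one_ne_zero, hA1] at h
    have e : b * (AA (l + 1) - AA l - 1) = b * AA (l + 1) - b * AA l - b * 1 := by ring
    rw [e, hgsub, hgsub, h]
    simp only [mul_comm, mul_left_comm, inv_mul_cancel_left, inv_mul_cancel, mul_inv_cancel, mul_one, mul_inv, mul_assoc]
  have hp2 : ∀ b, g (b * (AA (l - 1) - AA l + 1)) = 1 := by
    intro b
    have h := hl l (-1) b
    rw [← sub_eq_add_neg, hE _ hm, hE _ hl0, hE _ hn1, hAn] at h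
    have e : b * (AA (l - 1) - AA l + 1) = b * AA (l - 1) - b * AA l - b * (-1) := by ring
    rw [e, hgsub, hgsub, h]
    simp only [mul_comm, mul_left_comm, inv_mul_cancel_left, inv_mul_cancel, mul_inv_cancel, mul_one, mul_inv, mul_assoc]
  have hgall : ∀ w, g w = 1 := by
    by_cases hd1 : AA (l + 1) - AA l - 1 = 0
    · by_cases hd2 : AA (l - 1) - AA l + 1 = 0
      · exfalso
        have e0 : s l * l ^ 2 * AA l = 1 := mul_inv_cancel₀ (hc0 l hl0)
        have e1 : (s l + 1) * (l + 1) ^ 2 * (AA l + 1) = 1 := by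
          have : AA (l + 1) = AA l + 1 := by linear_combination hd1
          rw [← this]
          have h := mul_inv_cancel₀ (hc0 (l + 1) hp)
          rw [map_add, map_one] at h
          simp only [hAA, map_add, map_one]
          exact h
        have e2 : (s l - 1) * (l - 1) ^ 2 * (AA l - 1) = 1 := by
          have : AA (l - 1) = AA l - 1 := by linear_combination hd2
          rw [← this]
          have h := mul_inv_cancel₀ (hc0 (l - 1) hm)
          rw [map_sub, map_one] at h
          simp only [hAA, map_sub, map_one]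
          exact h
        have h := arith6 e0 e1 e2
        rcases mul_eq_zero.1 h with h | h
        · exact hsq l (by linear_combination h)
        · exact hsq (l * l) (by linear_combination h)
      · exact hkey _ hd2 hp2
    · exact hkey _ hd1 hp1
  intro a b
  by_cases ha : a = 0
  · have h := hl 0 0 b
    rw [add_zero] at h
    rw [ha]
    exact (mul_eq_left.1 h.symm)
  · rw [hE a ha]
    exact hgall _

end Forms

section CF

variable {Γ : Type*} [Group Γ] {G : Type*} [Group G]

lemma comm_mul_left {x y c : Γ} (h : Commute c y) : ⁅x * c, y⁆ = ⁅x, y⁆ := by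
  rw [commutatorElement_def, commutatorElement_def, mul_inv_rev]
  have h' : c * y = y * c := h
  calc x * c * y * (c⁻¹ * x⁻¹) * y⁻¹ = x * (c * y) * c⁻¹ * x⁻¹ * y⁻¹ := by group
    _ = x * (y * c) * c⁻¹ * x⁻¹ * y⁻¹ := by rw [h']
    _ = x * y * x⁻¹ * y⁻¹ := by group

lemma comm_mul_right {x y c : Γ} (h : Commute c x) : ⁅x, y * c⁆ = ⁅x, y⁆ := by
  rw [commutatorElement_def, commutatorElement_def, mul_inv_rev]
  have h' : c * x⁻¹ = x⁻¹ * c := (h.inv_right).eq
  calc x * (y * c) * x⁻¹ * (c⁻¹ * y⁻¹) = x * y * (c * x⁻¹) * c⁻¹ * y⁻¹ := by group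
    _ = x * y * (x⁻¹ * c) * c⁻¹ * y⁻¹ := by rw [h']
    _ = x * y * x⁻¹ * y⁻¹ := by group

/-- Class-two expansion of the commutator on the left. -/
lemma comm_mul_mul {x x' y : Γ} (h : Commute ⁅x', y⁆ x) : ⁅x * x', y⁆ = ⁅x', y⁆ * ⁅x, y⁆ := by
  have e : x' * y * x'⁻¹ = ⁅x', y⁆ * y := by
    rw [commutatorElement_def]; group
  calc ⁅x * x', y⁆ = x * (x' * y * x'⁻¹) * x⁻¹ * y⁻¹ := by
        rw [commutatorElement_def]; group
    _ = x * ⁅x', y⁆ * y * x⁻¹ * y⁻¹ := by rw [e]; group
    _ = ⁅x', y⁆ * x * y * x⁻¹ * y⁻¹ := by rw [h.symm.eq]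
    _ = ⁅x', y⁆ * ⁅x, y⁆ := by rw [commutatorElement_def x y]; group

/-- Class-two expansion of the commutator on the right. -/
lemma comm_mul_mul' {x y y' : Γ} (h : Commute ⁅x, y'⁆ y) : ⁅x, y * y'⁆ = ⁅x, y⁆ * ⁅x, y'⁆ := by
  have e : x * y' * x⁻¹ = ⁅x, y'⁆ * y' := by
    rw [commutatorElement_def]; group
  calc ⁅x, y * y'⁆ = x * y * x⁻¹ * (x * y' * x⁻¹) * y'⁻¹ * y⁻¹ := by
        rw [commutatorElement_def]; group
    _ = x * y * x⁻¹ * (⁅x, y'⁆ * y') * y'⁻¹ * y⁻¹ := by rw [e]
    _ = x * y * x⁻¹ * ⁅x, y'⁆ * y⁻¹ := by group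
    _ = x * y * x⁻¹ * (⁅x, y'⁆ * y⁻¹) := by group
    _ = x * y * x⁻¹ * (y⁻¹ * ⁅x, y'⁆) := by rw [(h.inv_right).eq]
    _ = ⁅x, y⁆ * ⁅x, y'⁆ := by rw [commutatorElement_def x y]; group

lemma conj_comm (t x y : Γ) : t * ⁅x, y⁆ * t⁻¹ = ⁅t * x * t⁻¹, t * y * t⁻¹⁆ := by
  rw [commutatorElement_def, commutatorElement_def]; group

/-- The full expansion of the commutator on the left. -/
lemma comm_mul_three (g g' h : Γ) : ⁅g * g', h⁆ = ⁅g, ⁅g', h⁆⁆ * (⁅g', h⁆ * ⁅g, h⁆) := by
  simp only [commutatorElement_def]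
  group

variable (σ : Γ →* G) (hσ : Function.Surjective σ) (hC : σ.ker ≤ Subgroup.center Γ)

include hC in
lemma comm_eq_of_map {x x' y y' : Γ} (hx : σ x = σ x') (hy : σ y = σ y') : ⁅x, y⁆ = ⁅x', y'⁆ := by
  have h1 : x⁻¹ * x' ∈ σ.ker := by
    rw [MonoidHom.mem_ker, map_mul, map_inv, hx, inv_mul_cancel]
  have h2 : y⁻¹ * y' ∈ σ.ker := by
    rw [MonoidHom.mem_ker, map_mul, map_inv, hy, inv_mul_cancel]
  have h1' := Subgroup.mem_center_iff.1 (hC h1)
  have h2' := Subgroup.mem_center_iff.1 (hC h2)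
  have e1 : x' = x * (x⁻¹ * x') := by group
  have e2 : y' = y * (y⁻¹ * y') := by group
  rw [e1, e2, comm_mul_left (Commute.symm (h1' _)), comm_mul_right (Commute.symm (h2' _))]

/-- The commutator form. -/
noncomputable def cf (u v : G) : Γ := ⁅Function.surjInv hσ u, Function.surjInv hσ v⁆

lemma map_surjInv (u : G) : σ (Function.surjInv hσ u) = u := Function.surjInv_eq hσ u

include hC in
lemma cf_eq {x y : Γ} {u v : G} (hx : σ x = u) (hy : σ y = v) : ⁅x, y⁆ = cf σ hσ u v :=
  comm_eq_of_map σ hC (by rw [hx, map_surjInv]) (by rw [hy, map_surjInv])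

lemma cf_mem_ker {u v : G} (h : Commute u v) : cf σ hσ u v ∈ σ.ker := by
  rw [MonoidHom.mem_ker, cf, map_commutatorElement, map_surjInv, map_surjInv]
  exact commutatorElement_eq_one_iff_commute.2 h

include hC in
lemma cf_central {u v : G} (h : Commute u v) (g : Γ) : g * cf σ hσ u v = cf σ hσ u v * g :=
  (Subgroup.mem_center_iff.1 (hC (cf_mem_ker σ hσ h))) g

include hC in
lemma cf_mul_left' {u u' v : G} (h : Commute u v) (h' : Commute u' v) :
    cf σ hσ (u * u') v = cf σ hσ u v * cf σ hσ u' v := by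
  have h1 := cf_eq σ hσ hC (x := Function.surjInv hσ u * Function.surjInv hσ u')
    (y := Function.surjInv hσ v) (u := u * u') (v := v) (by rw [map_mul, map_surjInv, map_surjInv])
    (map_surjInv σ hσ v)
  rw [← h1, comm_mul_mul ((Subgroup.mem_center_iff.1 (hC (cf_mem_ker σ hσ h'))) _).symm]
  show cf σ hσ u' v * cf σ hσ u v = _
  exact (cf_central σ hσ hC h' _).symm

include hC in
lemma cf_mul_right' {u v v' : G} (h : Commute u v) (h' : Commute u v') :
    cf σ hσ u (v * v') = cf σ hσ u v * cf σ hσ u v' := by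
  have h1 := cf_eq σ hσ hC (x := Function.surjInv hσ u)
    (y := Function.surjInv hσ v * Function.surjInv hσ v') (u := u) (v := v * v') (map_surjInv σ hσ u)
    (by rw [map_mul, map_surjInv, map_surjInv])
  rw [← h1, comm_mul_mul' ((Subgroup.mem_center_iff.1 (hC (cf_mem_ker σ hσ h'))) _).symm]
  rfl

include hC in
lemma cf_one_left (v : G) : cf σ hσ 1 v = 1 := by
  have h1 := cf_eq σ hσ hC (x := 1) (y := Function.surjInv hσ v) (u := 1) (v := v) (map_one σ)
    (map_surjInv σ hσ v)
  rw [← h1, commutatorElement_one_left]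

include hC in
lemma cf_swap (u v : G) : cf σ hσ v u = (cf σ hσ u v)⁻¹ := by
  rw [cf, cf, commutatorElement_inv]

lemma cf_self (u : G) : cf σ hσ u u = 1 := by
  rw [cf, commutatorElement_self]

include hC in
lemma cf_conj (w : G) {u v : G} (h : Commute u v) :
    cf σ hσ (w * u * w⁻¹) (w * v * w⁻¹) = cf σ hσ u v := by
  have h1 := cf_eq σ hσ hC
    (x := Function.surjInv hσ w * Function.surjInv hσ u * (Function.surjInv hσ w)⁻¹)
    (y := Function.surjInv hσ w * Function.surjInv hσ v * (Function.surjInv hσ w)⁻¹)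
    (u := w * u * w⁻¹) (v := w * v * w⁻¹)
    (by rw [map_mul, map_mul, map_inv, map_surjInv, map_surjInv])
    (by rw [map_mul, map_mul, map_inv, map_surjInv, map_surjInv])
  rw [← h1, ← conj_comm]
  have h2 := cf_central σ hσ hC h (Function.surjInv hσ w)
  show Function.surjInv hσ w * cf σ hσ u v * (Function.surjInv hσ w)⁻¹ = _
  rw [h2, mul_assoc, mul_inv_cancel, mul_one]

end CF

section Phi

variable {F : Type*} [Field F] [CharP F 3] [Fintype F]

/-- A form on a group, additive and alternating, trivial on a subgroup with quotient `F` and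
invariant by scaling on `F`, vanishes. -/
theorem Phi_trivial {P A : Type*} [Group P] [CommGroup A] (hq : 4 ≤ Fintype.card F)
    (Y : Subgroup P) (lift : F → P) (Φ : P → P → A)
    (ha : ∀ g g' h, Φ (g * g') h = Φ g h * Φ g' h)
    (hb : ∀ g h, Φ h g = (Φ g h)⁻¹)
    (hc : ∀ g h, h ∈ Y → Φ g h = 1)
    (he : ∀ g, ∃ t, ∃ w ∈ Y, g = lift t * w)
    (hf : ∀ t t', ∃ w ∈ Y, lift t * lift t' = lift (t + t') * w)
    (hd : ∀ l : F, l ≠ 0 → ∀ t t', Φ (lift (l * t)) (lift (l * t')) = Φ (lift t) (lift t')) :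
    ∀ g h, Φ g h = 1 := by
  have hl0 : ∀ g h h', h' ∈ Y → Φ g (h * h') = Φ g h := by
    intro g h h' hh'
    rw [hb (h * h') g, hb h g, ha h h' g, hb g h', hc g h' hh', inv_one, mul_one]
  have hadd : ∀ g h h', Φ g (h * h') = Φ g h * Φ g h' := by
    intro g h h'
    rw [hb (h * h') g, hb h g, hb h' g, ha, mul_inv]
  have hy0 : ∀ g g' h, g' ∈ Y → Φ (g * g') h = Φ g h := by
    intro g g' h hg'
    rw [ha, hb h g', hc h g' hg', inv_one, mul_one]
  have hform := form3_eq_one hq (fun t t' => Φ (lift t) (lift t'))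
    (by
      intro a a' b
      obtain ⟨w, hw, e⟩ := hf a a'
      show Φ (lift (a + a')) (lift b) = Φ (lift a) (lift b) * Φ (lift a') (lift b)
      rw [← ha, e, hy0 _ _ _ hw])
    (by
      intro a b b'
      obtain ⟨w, hw, e⟩ := hf b b'
      show Φ (lift a) (lift (b + b')) = Φ (lift a) (lift b) * Φ (lift a) (lift b')
      rw [← hadd, e, hl0 _ _ _ hw])
    hd
  intro g h
  obtain ⟨t, w, hw, rfl⟩ := he g
  obtain ⟨t', w', hw', rfl⟩ := he h
  rw [hy0 _ _ _ hw, hl0 _ _ _ hw']
  exact hform t t'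

end Phi

end Cfsg.Agent.Lib.ReeG2.Sch1
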