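import Cfsg.Agent.Lib.ReeG2.Sch1

/-!
# The lifts of the Sylow 3-subgroup of a small Ree group to a central extension

We work with an abstract coordinate description of the Borel subgroup.
-/

set_option autoImplicit false
set_option linter.unusedSectionVars false
set_option linter.unusedVariables false
set_option linter.style.haveILetI false

namespace Cfsg.Agent.Lib.ReeG2.Sch2

open Cfsg Cfsg.Agent.Lib.ReeG2.Sch1
open scoped commutatorElement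

/-- Coordinates on the Borel subgroup of a small Ree group. -/
structure RD (F G : Type*) [Field F] [Group G] where
  s : F →+* F
  ss : ∀ t, s (s t) = t ^ 3
  uu : F → F → F → G
  hG : Fˣ → G
  U : Subgroup G
  Y : Subgroup G
  mem_U : ∀ x, x ∈ U ↔ ∃ t a b, x = uu t a b
  mem_Y : ∀ x, x ∈ Y ↔ ∃ a b, x = uu 0 a b
  uu_mul : ∀ t1 u1 v1 t2 u2 v2, uu t1 u1 v1 * uu t2 u2 v2 =
    uu (t1 + t2) (u1 + u2 - t1 * s t2) (v1 + v2 - t2 * u1 + t1 * t2 * s t2 - t1 ^ 2 * s t2)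
  hG_conj : ∀ (l : Fˣ) t u v, hG l * uu t u v * (hG l)⁻¹ =
    uu ((l : F) * t) (s l * l * u) (s l * (l : F) ^ 2 * v)
  hG_mul : ∀ l l', hG (l * l') = hG l * hG l'

namespace RD

variable {F G : Type*} [Field F] [Group G] (R : RD F G)

lemma mul0 (a b c d : F) : R.uu 0 a b * R.uu 0 c d = R.uu 0 (a + c) (b + d) := by
  rw [R.uu_mul]
  simp

lemma comm0 (v t a b : F) : Commute (R.uu 0 0 v) (R.uu t a b) := by
  show _ * _ = _ * _
  rw [R.uu_mul, R.uu_mul]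
  simp only [map_zero, mul_zero, zero_mul, zero_add, add_zero, sub_zero]
  congr 1
  ring

lemma comm1 (a b c d : F) : Commute (R.uu 0 a b) (R.uu 0 c d) := by
  show _ * _ = _ * _
  rw [R.mul0, R.mul0, add_comm a, add_comm b]

lemma split_t (t a b : F) : R.uu t a b = R.uu t 0 0 * R.uu 0 a b := by
  rw [R.uu_mul]
  simp

lemma split_y (a b : F) : R.uu 0 a b = R.uu 0 a 0 * R.uu 0 0 b := by
  rw [R.mul0]
  simp

lemma comm_YY (t a b c d : F) :
    R.uu t a b * R.uu 0 c d = R.uu 0 0 (t * c) * (R.uu 0 c d * R.uu t a b) := by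
  rw [R.uu_mul, R.uu_mul, R.uu_mul]
  simp only [map_zero, mul_zero, zero_mul, zero_add, add_zero, sub_zero]
  congr 1
  · ring
  · ring

lemma conj_YY (t a b c d : F) :
    R.uu t a b * R.uu 0 c d * (R.uu t a b)⁻¹ = R.uu 0 c (d + t * c) := by
  rw [R.comm_YY, mul_assoc, mul_assoc, mul_inv_cancel, mul_one, R.mul0, zero_add, add_comm (t * c)]

lemma mem_Y_of (a b : F) : R.uu 0 a b ∈ R.Y := (R.mem_Y _).2 ⟨a, b, rfl⟩

lemma mem_U_of (t a b : F) : R.uu t a b ∈ R.U := (R.mem_U _).2 ⟨t, a, b, rfl⟩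

lemma Y_le_U : R.Y ≤ R.U := by
  intro x hx
  obtain ⟨a, b, rfl⟩ := (R.mem_Y x).1 hx
  exact R.mem_U_of _ _ _

lemma comm_mem_Y (t a b t' a' b' : F) : ⁅R.uu t a b, R.uu t' a' b'⁆ ∈ R.Y := by
  rw [commutatorElement_def, R.uu_mul]
  have e : ∀ t A B A' B' : F, R.uu t A B = R.uu t A' B' * R.uu 0 (A - A') (B - B') := by
    intro t A B A' B'
    rw [R.uu_mul]
    simp
  set A : F := a + a' - t * R.s t'
  set B : F := b + b' - t' * a + t * t' * R.s t' - t ^ 2 * R.s t'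
  set A' : F := a' + a - t' * R.s t
  set B' : F := b' + b - t * a' + t' * t * R.s t - t' ^ 2 * R.s t
  have h2 : R.uu t' a' b' * R.uu t a b = R.uu (t + t') A' B' := by
    rw [R.uu_mul, add_comm t' t]
  have h3 : R.uu (t + t') A B * (R.uu t a b)⁻¹ * (R.uu t' a' b')⁻¹ =
      R.uu (t + t') A' B' * R.uu 0 (A - A') (B - B') * (R.uu (t + t') A' B')⁻¹ := by
    rw [← e, ← h2]
    group
  rw [h3, R.conj_YY]
  exact R.mem_Y_of _ _

lemma uu_mul_split (t t' : F) : ∃ a b, R.uu t 0 0 * R.uu t' 0 0 = R.uu (t + t') 0 0 * R.uu 0 a b := by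
  refine ⟨0 + 0 - t * R.s t', 0 + 0 - t' * 0 + t * t' * R.s t' - t ^ 2 * R.s t', ?_⟩
  rw [R.uu_mul, R.split_t (t + t')]

lemma uu_zero : R.uu 0 0 0 = 1 := by
  have h := R.mul0 0 0 0 0
  rw [add_zero] at h
  exact mul_eq_left.1 h

lemma conj_z (l : Fˣ) (v : F) : R.hG l * R.uu 0 0 v * (R.hG l)⁻¹ = R.uu 0 0 (R.s l * (l : F) ^ 2 * v) := by
  rw [R.hG_conj]
  simp

lemma conj_a (l : Fˣ) (a : F) : R.hG l * R.uu 0 a 0 * (R.hG l)⁻¹ = R.uu 0 (R.s l * l * a) 0 := by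
  rw [R.hG_conj]
  simp

lemma conj_t (l : Fˣ) (t : F) : R.hG l * R.uu t 0 0 * (R.hG l)⁻¹ = R.uu ((l : F) * t) 0 0 := by
  rw [R.hG_conj]
  simp

/-- The square scaling on the `u`-coordinate. -/
lemma c1_sq (d : F) (hd : d ≠ 0) : ∃ l : Fˣ, R.s l * l = d * d := by
  have hs : R.s d ≠ 0 := (map_ne_zero R.s).2 hd
  refine ⟨Units.mk0 (R.s d / d) (div_ne_zero hs hd), ?_⟩
  rw [Units.val_mk0, map_div₀, R.ss]
  field_simp

/-- All scalings on the `v`-coordinate. -/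
lemma c2_all (d : F) (hd : d ≠ 0) : ∃ l : Fˣ, R.s l * (l : F) ^ 2 = d := by
  have hs : R.s d ≠ 0 := (map_ne_zero R.s).2 hd
  refine ⟨Units.mk0 (d * d / R.s d) (div_ne_zero (mul_ne_zero hd hd) hs), ?_⟩
  rw [Units.val_mk0, map_div₀, map_mul, R.ss]
  field_simp

lemma s_neg_one : R.s (-1) = -1 := by
  rw [map_neg, map_one]

end RD

/-- The center as a commutative group. -/
local instance cgCenter {Γ : Type*} [Group Γ] : CommGroup (Subgroup.center Γ) :=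
  { (inferInstance : Group (Subgroup.center Γ)) with
    mul_comm := fun a b => Subtype.ext (Subgroup.mem_center_iff.1 b.2 a.1) }

section Lift

variable {F : Type*} [Field F] [CharP F 3] [Fintype F]
variable {G : Type*} [Group G] (R : RD F G)
variable {Γ : Type*} [Group Γ] (σ : Γ →* G) (hσ : Function.Surjective σ)
  (hC : σ.ker ≤ Subgroup.center Γ)

include hσ hC

/-- (L1) -/
lemma cf_zz (hq : 4 ≤ Fintype.card F) (b b' : F) : cf σ hσ (R.uu 0 0 b) (R.uu 0 0 b') = 1 := by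
  have h := form3_eq_one hq (fun b b' => (⟨cf σ hσ (R.uu 0 0 b) (R.uu 0 0 b'),
      hC (cf_mem_ker σ hσ (R.comm1 _ _ _ _))⟩ : Subgroup.center Γ)) ?_ ?_ ?_ b b'
  · exact congrArg Subtype.val h
  · intro a a' c
    apply Subtype.ext
    show cf σ hσ (R.uu 0 0 (a + a')) _ = cf σ hσ _ _ * cf σ hσ _ _
    rw [← cf_mul_left' σ hσ hC (R.comm1 _ _ _ _) (R.comm1 _ _ _ _), R.mul0, add_zero]
  · intro a c c'
    apply Subtype.ext
    show cf σ hσ _ (R.uu 0 0 (c + c')) = cf σ hσ _ _ * cf σ hσ _ _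
    rw [← cf_mul_right' σ hσ hC (R.comm1 _ _ _ _) (R.comm1 _ _ _ _), R.mul0, add_zero]
  · intro d hd a c
    apply Subtype.ext
    show cf σ hσ (R.uu 0 0 (d * a)) (R.uu 0 0 (d * c)) = cf σ hσ (R.uu 0 0 a) (R.uu 0 0 c)
    obtain ⟨l, hl⟩ := R.c2_all d hd
    rw [← hl, ← R.conj_z, ← R.conj_z]
    exact cf_conj σ hσ hC _ (R.comm1 _ _ _ _)

/-- (L2) -/
lemma cf_az (a b : F) : cf σ hσ (R.uu 0 a 0) (R.uu 0 0 b) = 1 := by
  set k : F → Subgroup.center Γ := fun b => ⟨cf σ hσ (R.uu 0 a 0) (R.uu 0 0 b),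
      hC (cf_mem_ker σ hσ (R.comm1 _ _ _ _))⟩ with hk
  have hadd : ∀ x y, k (x + y) = k x * k y := by
    intro x y
    apply Subtype.ext
    show cf σ hσ _ (R.uu 0 0 (x + y)) = cf σ hσ _ _ * cf σ hσ _ _
    rw [← cf_mul_right' σ hσ hC (R.comm1 _ _ _ _) (R.comm1 _ _ _ _), R.mul0, add_zero]
  have h0 : k 0 = 1 := by
    have h := hadd 0 0
    rw [add_zero] at h
    exact mul_eq_left.1 h.symm
  have hneg : k (-b) = k b := by
    apply Subtype.ext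
    show cf σ hσ _ (R.uu 0 0 (-b)) = cf σ hσ (R.uu 0 a 0) (R.uu 0 0 b)
    have e1 := R.conj_a (-1) a
    have e2 := R.conj_z (-1) b
    simp only [Units.val_neg, Units.val_one, RD.s_neg_one] at e1 e2
    have e3 : -1 * (-1 : F) * a = a := by ring
    have e4 : -1 * (-1 : F) ^ 2 * b = -b := by ring
    rw [e3] at e1
    rw [e4] at e2
    rw [← e2]
    nth_rewrite 1 [← e1]
    exact cf_conj σ hσ hC _ (R.comm1 _ _ _ _)
  have h2 : k b * k b = 1 := by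
    have h := hadd b (-b)
    rw [add_neg_cancel, h0, hneg] at h
    exact h.symm
  have h3 : k b * k b * k b = 1 := by
    rw [← hadd, ← hadd, add3, h0]
  rw [h2, one_mul] at h3
  exact congrArg Subtype.val h3

/-- (L3) -/
lemma cf_aa (hq : 4 ≤ Fintype.card F) (hns : ∀ u : F, u ≠ 0 → (∃ d, d ≠ 0 ∧ u = d * d) ∨ ∃ d, d ≠ 0 ∧ u = -(d * d))
    (a a' : F) : cf σ hσ (R.uu 0 a 0) (R.uu 0 a' 0) = 1 := by
  set E : F → F → Subgroup.center Γ := fun b b' => ⟨cf σ hσ (R.uu 0 b 0) (R.uu 0 b' 0),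
      hC (cf_mem_ker σ hσ (R.comm1 _ _ _ _))⟩ with hE
  have hl : ∀ a a' b, E (a + a') b = E a b * E a' b := by
    intro a a' c
    apply Subtype.ext
    show cf σ hσ (R.uu 0 (a + a') 0) _ = cf σ hσ _ _ * cf σ hσ _ _
    rw [← cf_mul_left' σ hσ hC (R.comm1 _ _ _ _) (R.comm1 _ _ _ _), R.mul0, add_zero]
  have hr : ∀ a b b', E a (b + b') = E a b * E a b' := by
    intro a c c'
    apply Subtype.ext
    show cf σ hσ _ (R.uu 0 (c + c') 0) = cf σ hσ _ _ * cf σ hσ _ _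
    rw [← cf_mul_right' σ hσ hC (R.comm1 _ _ _ _) (R.comm1 _ _ _ _), R.mul0, add_zero]
  have hsq : ∀ d : F, d ≠ 0 → ∀ a b, E (d * d * a) (d * d * b) = E a b := by
    intro d hd a c
    apply Subtype.ext
    show cf σ hσ (R.uu 0 (d * d * a) 0) (R.uu 0 (d * d * c) 0) = cf σ hσ (R.uu 0 a 0) (R.uu 0 c 0)
    obtain ⟨l, hl⟩ := R.c1_sq d hd
    rw [← hl, ← R.conj_a, ← R.conj_a]
    exact cf_conj σ hσ hC _ (R.comm1 _ _ _ _)
  have hneg : ∀ a b, E (-a) (-b) = E a b := by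
    intro a b
    have h1 : ∀ a b, E (-a) b = (E a b)⁻¹ := by
      intro a b
      have h := hl a (-a) b
      have h0 : E 0 b = 1 := by
        have h := hl 0 0 b
        rw [add_zero] at h
        exact mul_eq_left.1 h.symm
      rw [add_neg_cancel, h0] at h
      exact (inv_eq_of_mul_eq_one_right h.symm).symm
    have h2 : ∀ a b, E a (-b) = (E a b)⁻¹ := by
      intro a b
      have h := hr a b (-b)
      have h0 : E a 0 = 1 := by
        have h := hr a 0 0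
        rw [add_zero] at h
        exact mul_eq_left.1 h.symm
      rw [add_neg_cancel, h0] at h
      exact (inv_eq_of_mul_eq_one_right h.symm).symm
    rw [h1, h2, inv_inv]
  have h := form3_eq_one hq E hl hr ?_ a a'
  · exact congrArg Subtype.val h
  · intro u hu b c
    rcases hns u hu with ⟨d, hd, rfl⟩ | ⟨d, hd, rfl⟩
    · exact hsq d hd b c
    · have e1 : -(d * d) * b = -(d * d * b) := by ring
      have e2 : -(d * d) * c = -(d * d * c) := by ring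
      rw [e1, e2, hneg, hsq d hd]

/-- (L4) -/
lemma cf_yy (hq : 4 ≤ Fintype.card F) (hns : ∀ u : F, u ≠ 0 → (∃ d, d ≠ 0 ∧ u = d * d) ∨ ∃ d, d ≠ 0 ∧ u = -(d * d))
    (a b a' b' : F) : cf σ hσ (R.uu 0 a b) (R.uu 0 a' b') = 1 := by
  rw [R.split_y a' b', cf_mul_right' σ hσ hC (R.comm1 _ _ _ _) (R.comm1 _ _ _ _), R.split_y a b,
    cf_mul_left' σ hσ hC (R.comm1 _ _ _ _) (R.comm1 _ _ _ _),
    cf_mul_left' σ hσ hC (R.comm1 _ _ _ _) (R.comm1 _ _ _ _),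
    cf_aa R σ hσ hC hq hns, cf_az R σ hσ hC, cf_swap σ hσ hC (R.uu 0 a' 0) (R.uu 0 0 b),
    cf_az R σ hσ hC, cf_zz R σ hσ hC hq]
  simp

/-- (L6) -/
lemma cf_tz (hq : 4 ≤ Fintype.card F) (hsq : ∀ x : F, x * x ≠ -1)
    (hns : ∀ u : F, u ≠ 0 → (∃ d, d ≠ 0 ∧ u = d * d) ∨ ∃ d, d ≠ 0 ∧ u = -(d * d))
    (t b : F) : cf σ hσ (R.uu t 0 0) (R.uu 0 0 b) = 1 := by
  have hcm : ∀ t b, Commute (R.uu t 0 0) (R.uu 0 0 b) := fun t b => (R.comm0 b t 0 0).symm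
  have h := form6_eq_one R.s hq hsq (fun t b => (⟨cf σ hσ (R.uu t 0 0) (R.uu 0 0 b),
      hC (cf_mem_ker σ hσ (hcm _ _))⟩ : Subgroup.center Γ)) ?_ ?_ ?_ t b
  · exact congrArg Subtype.val h
  · intro a a' c
    apply Subtype.ext
    show cf σ hσ (R.uu (a + a') 0 0) _ = cf σ hσ _ _ * cf σ hσ _ _
    rw [← cf_mul_left' σ hσ hC (hcm _ _) (hcm _ _), R.uu_mul]
    set a₀ : F := 0 + 0 - a * R.s a' with ha₀
    set b₀ : F := 0 + 0 - a' * 0 + a * a' * R.s a' - a ^ 2 * R.s a' with hb₀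
    rw [R.split_t (a + a') a₀ b₀, cf_mul_left' σ hσ hC (hcm _ _) (R.comm1 _ _ _ _),
      cf_yy R σ hσ hC hq hns, mul_one]
  · intro a c c'
    apply Subtype.ext
    show cf σ hσ _ (R.uu 0 0 (c + c')) = cf σ hσ _ _ * cf σ hσ _ _
    rw [← cf_mul_right' σ hσ hC (hcm _ _) (hcm _ _), R.mul0, add_zero]
  · intro d hd a c
    apply Subtype.ext
    show cf σ hσ (R.uu (d * a) 0 0) (R.uu 0 0 (R.s d * d ^ 2 * c)) = cf σ hσ (R.uu a 0 0) (R.uu 0 0 c)
    have e1 : R.uu (d * a) 0 0 = R.hG (Units.mk0 d hd) * R.uu a 0 0 * (R.hG (Units.mk0 d hd))⁻¹ := by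
      rw [R.conj_t, Units.val_mk0]
    have e2 : R.uu 0 0 (R.s d * d ^ 2 * c) = R.hG (Units.mk0 d hd) * R.uu 0 0 c * (R.hG (Units.mk0 d hd))⁻¹ := by
      rw [R.conj_z, Units.val_mk0]
    rw [e1, e2]
    exact cf_conj σ hσ hC _ (hcm _ _)

/-- (L7) -/
lemma cf_zu (hq : 4 ≤ Fintype.card F) (hsq : ∀ x : F, x * x ≠ -1)
    (hns : ∀ u : F, u ≠ 0 → (∃ d, d ≠ 0 ∧ u = d * d) ∨ ∃ d, d ≠ 0 ∧ u = -(d * d))
    (b t a c : F) : cf σ hσ (R.uu 0 0 b) (R.uu t a c) = 1 := by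
  rw [R.split_t t a c, cf_mul_right' σ hσ hC (R.comm0 _ _ _ _) (R.comm0 _ _ _ _),
    cf_swap σ hσ hC (R.uu t 0 0) (R.uu 0 0 b), cf_tz R σ hσ hC hq hsq hns, cf_yy R σ hσ hC hq hns]
  simp

lemma lift_central (hq : 4 ≤ Fintype.card F) (hsq : ∀ x : F, x * x ≠ -1)
    (hns : ∀ u : F, u ≠ 0 → (∃ d, d ≠ 0 ∧ u = d * d) ∨ ∃ d, d ≠ 0 ∧ u = -(d * d))
    {x y : Γ} {b t a c : F} (hx : σ x = R.uu 0 0 b) (hy : σ y = R.uu t a c) : Commute x y := by
  rw [← commutatorElement_eq_one_iff_commute, cf_eq σ hσ hC hx hy, cf_zu R σ hσ hC hq hsq hns]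

lemma lift_yy (hq : 4 ≤ Fintype.card F)
    (hns : ∀ u : F, u ≠ 0 → (∃ d, d ≠ 0 ∧ u = d * d) ∨ ∃ d, d ≠ 0 ∧ u = -(d * d))
    {x y : Γ} {a b c d : F} (hx : σ x = R.uu 0 a b) (hy : σ y = R.uu 0 c d) : Commute x y := by
  rw [← commutatorElement_eq_one_iff_commute, cf_eq σ hσ hC hx hy, cf_yy R σ hσ hC hq hns]

lemma comm_eq_D (hq : 4 ≤ Fintype.card F) (hsq : ∀ x : F, x * x ≠ -1)
    (hns : ∀ u : F, u ≠ 0 → (∃ d, d ≠ 0 ∧ u = d * d) ∨ ∃ d, d ≠ 0 ∧ u = -(d * d))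
    {x y : Γ} {t a b c d : F} (hx : σ x = R.uu t a b) (hy : σ y = R.uu 0 c d) :
    ⁅x, y⁆ = cf σ hσ (R.uu t 0 0) (R.uu 0 c 0) := by
  set x₀ := Function.surjInv hσ (R.uu t 0 0) with hx₀
  set y₀ := Function.surjInv hσ (R.uu 0 c 0) with hy₀
  have hmx : σ x₀ = R.uu t 0 0 := map_surjInv σ hσ _
  have hmy : σ y₀ = R.uu 0 c 0 := map_surjInv σ hσ _
  have hw : σ (x₀⁻¹ * x) = R.uu 0 a b := by
    rw [map_mul, map_inv, hmx, hx, R.split_t t a b, inv_mul_cancel_left]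
  have hz : σ (y₀⁻¹ * y) = R.uu 0 0 d := by
    rw [map_mul, map_inv, hmy, hy, R.split_y c d, inv_mul_cancel_left]
  have e1 : x = x₀ * (x₀⁻¹ * x) := by group
  have e2 : y = y₀ * (y₀⁻¹ * y) := by group
  have h1 : ⁅x, y⁆ = ⁅x₀, y⁆ := by
    conv_lhs => rw [e1]
    exact comm_mul_left (lift_yy R σ hσ hC hq hns hw hy)
  rw [h1]
  have h2 : ⁅x₀, y⁆ = ⁅x₀, y₀⁆ := by
    conv_lhs => rw [e2]
    exact comm_mul_right (lift_central R σ hσ hC hq hsq hns hz hmx)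
  rw [h2]
  rfl

omit hC in
lemma D_map (t c : F) : σ (cf σ hσ (R.uu t 0 0) (R.uu 0 c 0)) = R.uu 0 0 (t * c) := by
  rw [cf, map_commutatorElement, map_surjInv, map_surjInv, commutatorElement_def, R.comm_YY]
  group

lemma D_add (hq : 4 ≤ Fintype.card F) (hsq : ∀ x : F, x * x ≠ -1)
    (hns : ∀ u : F, u ≠ 0 → (∃ d, d ≠ 0 ∧ u = d * d) ∨ ∃ d, d ≠ 0 ∧ u = -(d * d)) (t t' c : F) :
    cf σ hσ (R.uu (t + t') 0 0) (R.uu 0 c 0) =
      cf σ hσ (R.uu t' 0 0) (R.uu 0 c 0) * cf σ hσ (R.uu t 0 0) (R.uu 0 c 0) := by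
  set x := Function.surjInv hσ (R.uu t 0 0) with hx
  set x' := Function.surjInv hσ (R.uu t' 0 0) with hx'
  set y := Function.surjInv hσ (R.uu 0 c 0) with hy
  have hmx : σ x = R.uu t 0 0 := map_surjInv σ hσ _
  have hmx' : σ x' = R.uu t' 0 0 := map_surjInv σ hσ _
  have hmy : σ y = R.uu 0 c 0 := map_surjInv σ hσ _
  have h1 : ⁅x * x', y⁆ = cf σ hσ (R.uu (t + t') 0 0) (R.uu 0 c 0) := by
    obtain ⟨a, b, e⟩ := R.uu_mul_split t t'
    refine comm_eq_D R σ hσ hC hq hsq hns (a := a + 0) (b := b + 0) ?_ hmy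
    rw [map_mul, hmx, hmx', e, ← R.split_t]
    simp
  rw [← h1, comm_mul_mul]
  · rfl
  · exact lift_central R σ hσ hC hq hsq hns (D_map R σ hσ t' c) hmx

omit hσ hC in
lemma conj_of_map (hC : σ.ker ≤ Subgroup.center Γ) {a b : Γ} (h : σ a = σ b) (w : Γ) :
    a * w * a⁻¹ = b * w * b⁻¹ := by
  have h1 : a⁻¹ * b ∈ σ.ker := by
    rw [MonoidHom.mem_ker, map_mul, map_inv, h, inv_mul_cancel]
  have h2 := Subgroup.mem_center_iff.1 (hC h1)
  have e : b = a * (a⁻¹ * b) := by group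
  rw [e]
  calc a * w * a⁻¹ = a * (w * (a⁻¹ * b)) * (a⁻¹ * b)⁻¹ * a⁻¹ := by group
    _ = a * ((a⁻¹ * b) * w) * (a⁻¹ * b)⁻¹ * a⁻¹ := by rw [h2 w]
    _ = _ := by group

/-- Elements of the kernel lying in the commutator subgroup of `Γ` have order prime to `3`. -/
theorem pow_eq_one_of_mem_ker [Finite Γ] (hq : 4 ≤ Fintype.card F) (hsq : ∀ x : F, x * x ≠ -1)
    (hns : ∀ u : F, u ≠ 0 → (∃ d, d ≠ 0 ∧ u = d * d) ∨ ∃ d, d ≠ 0 ∧ u = -(d * d))
    {c : Γ} (hck : c ∈ σ.ker) (hcc : c ∈ commutator Γ) :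
    (c ^ (R.U.comap σ).index) ^ Nat.card Fˣ = 1 := by
  classical
  rw [Nat.card_eq_fintype_card]
  have hYmem : ∀ {x : Γ}, x ∈ R.Y.comap σ ↔ ∃ a b, σ x = R.uu 0 a b := by
    intro x
    rw [Subgroup.mem_comap, R.mem_Y]
  have hPmem : ∀ {x : Γ}, x ∈ R.U.comap σ ↔ ∃ t a b, σ x = R.uu t a b := by
    intro x
    rw [Subgroup.mem_comap, R.mem_U]
  have hYcomm : ∀ x y : R.Y.comap σ, x * y = y * x := by
    intro x y
    obtain ⟨a, b, hb⟩ := hYmem.1 x.2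
    obtain ⟨a', b', hb'⟩ := hYmem.1 y.2
    apply Subtype.ext
    exact lift_yy R σ hσ hC hq hns hb hb'
  letI iY : CommGroup (R.Y.comap σ) := { (inferInstance : Group (R.Y.comap σ)) with mul_comm := hYcomm }
  let τ : Fˣ → Γ := fun l => Function.surjInv hσ (R.hG l)
  have hτ : ∀ l, σ (τ l) = R.hG l := fun l => map_surjInv σ hσ _
  have hconjY : ∀ (l : Fˣ) (x : Γ), x ∈ R.Y.comap σ → τ l * x * (τ l)⁻¹ ∈ R.Y.comap σ := by
    intro l x hx
    obtain ⟨a, b, hb⟩ := hYmem.1 hx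
    refine hYmem.2 ⟨R.s l * l * a, R.s l * (l : F) ^ 2 * b, ?_⟩
    rw [map_mul, map_mul, map_inv, hτ, hb, R.hG_conj, mul_zero]
  let cj : Fˣ → R.Y.comap σ → R.Y.comap σ := fun l z => ⟨τ l * z * (τ l)⁻¹, hconjY l z z.2⟩
  let ν : R.Y.comap σ → R.Y.comap σ := fun z => ∏ l : Fˣ, cj l z
  have hν : ∀ x y : R.Y.comap σ, ν (x * y) = ν x * ν y := by
    intro x y
    show ∏ l : Fˣ, cj l (x * y) = (∏ l : Fˣ, cj l x) * ∏ l : Fˣ, cj l y
    rw [← Finset.prod_mul_distrib]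
    refine Finset.prod_congr rfl ?_
    intro l _
    apply Subtype.ext
    show τ l * ((x : Γ) * y) * (τ l)⁻¹ = (τ l * x * (τ l)⁻¹) * (τ l * y * (τ l)⁻¹)
    group
  let νh : R.Y.comap σ →* R.Y.comap σ := MonoidHom.mk' ν hν
  have hcjcj : ∀ (l m : Fˣ) w, cj l (cj m w) = cj (l * m) w := by
    intro l m w
    apply Subtype.ext
    show τ l * (τ m * (w : Γ) * (τ m)⁻¹) * (τ l)⁻¹ = τ (l * m) * w * (τ (l * m))⁻¹
    have h1 : σ (τ l * τ m) = σ (τ (l * m)) := by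
      rw [map_mul, hτ, hτ, hτ, R.hG_mul]
    rw [← conj_of_map σ hC h1]
    group
  have hνcj : ∀ (m : Fˣ) w, ν (cj m w) = ν w := by
    intro m w
    show ∏ l : Fˣ, cj l (cj m w) = ∏ l : Fˣ, cj l w
    refine Fintype.prod_equiv (Equiv.mulRight m) _ _ ?_
    intro l
    exact hcjcj l m w
  -- the norm kills `[P, Y]`
  have hDmem : ∀ t c : F, cf σ hσ (R.uu t 0 0) (R.uu 0 c 0) ∈ R.Y.comap σ := fun t c =>
    hYmem.2 ⟨0, t * c, D_map R σ hσ t c⟩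
  let DD : F → F → R.Y.comap σ := fun t c => ⟨_, hDmem t c⟩
  have hDD_add : ∀ t t' c, ν (DD (t + t') c) = ν (DD t c) * ν (DD t' c) := by
    intro t t' c
    have h : DD (t + t') c = DD t' c * DD t c := Subtype.ext (D_add R σ hσ hC hq hsq hns t t' c)
    rw [h, hν, mul_comm]
  have hDD_neg : ∀ t c, ν (DD (-t) c) = ν (DD t c) := by
    intro t c
    have h : DD (-t) c = cj (-1) (DD t c) := by
      apply Subtype.ext
      show cf σ hσ (R.uu (-t) 0 0) (R.uu 0 c 0) =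
        τ (-1) * (cf σ hσ (R.uu t 0 0) (R.uu 0 c 0)) * (τ (-1))⁻¹
      show _ = τ (-1) * ⁅Function.surjInv hσ (R.uu t 0 0), Function.surjInv hσ (R.uu 0 c 0)⁆ * (τ (-1))⁻¹
      rw [conj_comm]
      symm
      refine cf_eq σ hσ hC ?_ ?_
      · rw [map_mul, map_mul, map_inv, hτ, map_surjInv, R.conj_t]
        simp
      · rw [map_mul, map_mul, map_inv, hτ, map_surjInv, R.conj_a]
        simp [RD.s_neg_one]
    rw [h, hνcj]
  have hDD_one : ∀ t c, ν (DD t c) = 1 := by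
    intro t c
    have h0 : ν (DD 0 c) = 1 := by
      have h := hDD_add 0 0 c
      rw [add_zero] at h
      exact mul_eq_left.1 h.symm
    have h2 : ν (DD t c) * ν (DD t c) = 1 := by
      have h := hDD_add t (-t) c
      rw [add_neg_cancel, h0, hDD_neg] at h
      exact h.symm
    have h3 : ν (DD t c) * ν (DD t c) * ν (DD t c) = 1 := by
      rw [← hDD_add, ← hDD_add, add3, h0]
    rw [h2, one_mul] at h3
    exact h3
  -- the commutators
  have hPcomm : ∀ {g h : Γ}, g ∈ R.U.comap σ → h ∈ R.U.comap σ → ⁅g, h⁆ ∈ R.Y.comap σ := by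
    intro g h hg hh
    obtain ⟨t, a, b, e⟩ := hPmem.1 hg
    obtain ⟨t', a', b', e'⟩ := hPmem.1 hh
    rw [Subgroup.mem_comap, map_commutatorElement, e, e']
    exact R.comm_mem_Y _ _ _ _ _ _
  let Φ : R.U.comap σ → R.U.comap σ → R.Y.comap σ := fun g h => ν ⟨⁅g.1, h.1⁆, hPcomm g.2 h.2⟩
  have hΦY : ∀ (g h : R.U.comap σ), (h : Γ) ∈ R.Y.comap σ → Φ g h = 1 := by
    intro g h hh
    obtain ⟨t, a, b, e⟩ := hPmem.1 g.2
    obtain ⟨c, d, e'⟩ := hYmem.1 hh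
    have h1 : (⟨⁅g.1, h.1⁆, hPcomm g.2 h.2⟩ : R.Y.comap σ) = DD t c :=
      Subtype.ext (comm_eq_D R σ hσ hC hq hsq hns e e')
    show ν _ = 1
    rw [h1]
    exact hDD_one t c
  let lift : F → R.U.comap σ := fun t => ⟨Function.surjInv hσ (R.uu t 0 0), by
    rw [Subgroup.mem_comap, map_surjInv]
    exact R.mem_U_of _ _ _⟩
  have hlift : ∀ t, σ (lift t : Γ) = R.uu t 0 0 := fun t => map_surjInv σ hσ _
  have hYP : R.Y.comap σ ≤ R.U.comap σ := Subgroup.comap_mono R.Y_le_U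
  have hΦ := Phi_trivial hq ((R.Y.comap σ).comap (R.U.comap σ).subtype) lift Φ
    (by
      intro g g' h
      have h1 : (⟨⁅(g * g').1, h.1⁆, hPcomm (g * g').2 h.2⟩ : R.Y.comap σ) =
          ⟨⁅g.1, ⁅g'.1, h.1⁆⁆, hPcomm g.2 (hYP (hPcomm g'.2 h.2))⟩ *
            (⟨⁅g'.1, h.1⁆, hPcomm g'.2 h.2⟩ * ⟨⁅g.1, h.1⁆, hPcomm g.2 h.2⟩) :=
        Subtype.ext (comm_mul_three _ _ _)
      have h2 : ν ⟨⁅g.1, ⁅g'.1, h.1⁆⁆, hPcomm g.2 (hYP (hPcomm g'.2 h.2))⟩ = 1 :=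
        hΦY g ⟨⁅g'.1, h.1⁆, hYP (hPcomm g'.2 h.2)⟩ (hPcomm g'.2 h.2)
      show ν _ = ν _ * ν _
      rw [h1, hν, hν, h2, one_mul, mul_comm])
    (by
      intro g h
      have h1 : (⟨⁅h.1, g.1⁆, hPcomm h.2 g.2⟩ : R.Y.comap σ) = (⟨⁅g.1, h.1⁆, hPcomm g.2 h.2⟩)⁻¹ :=
        Subtype.ext (commutatorElement_inv _ _).symm
      show ν _ = (ν _)⁻¹
      rw [h1]
      exact map_inv νh _)
    (fun g h hh => hΦY g h hh)
    (by
      intro g
      obtain ⟨t, a, b, e⟩ := hPmem.1 g.2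
      refine ⟨t, (lift t)⁻¹ * g, hYmem.2 ⟨a, b, ?_⟩, by group⟩
      show σ ((lift t : Γ)⁻¹ * g) = _
      rw [map_mul, map_inv, hlift, e, R.split_t t a b, inv_mul_cancel_left])
    (by
      intro t t'
      obtain ⟨a, b, e⟩ := R.uu_mul_split t t'
      refine ⟨(lift (t + t'))⁻¹ * (lift t * lift t'), hYmem.2 ⟨a, b, ?_⟩, by group⟩
      show σ ((lift (t + t') : Γ)⁻¹ * ((lift t : Γ) * lift t')) = _
      rw [map_mul, map_inv, map_mul, hlift, hlift, hlift, e, inv_mul_cancel_left])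
    (by
      intro l hl t t'
      have h1 : (⟨⁅(lift (l * t)).1, (lift (l * t')).1⁆, hPcomm (lift (l * t)).2 (lift (l * t')).2⟩ : R.Y.comap σ) =
          cj (Units.mk0 l hl) ⟨⁅(lift t).1, (lift t').1⁆, hPcomm (lift t).2 (lift t').2⟩ := by
        apply Subtype.ext
        show ⁅(lift (l * t) : Γ), (lift (l * t') : Γ)⁆ =
          τ (Units.mk0 l hl) * ⁅(lift t : Γ), (lift t' : Γ)⁆ * (τ (Units.mk0 l hl))⁻¹
        rw [conj_comm]
        apply comm_eq_of_map σ hC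
        · rw [map_mul, map_mul, map_inv, hτ, hlift, hlift, R.conj_t, Units.val_mk0]
        · rw [map_mul, map_mul, map_inv, hτ, hlift, hlift, R.conj_t, Units.val_mk0]
      show ν _ = ν _
      rw [h1, hνcj])
  have hle : (commutator (R.U.comap σ)).map (R.U.comap σ).subtype ≤ νh.ker.map (R.Y.comap σ).subtype := by
    rw [Subgroup.map_le_iff_le_comap, commutator_def, Subgroup.commutator_le]
    rintro x - y -
    exact ⟨⟨⁅x.1, y.1⁆, hPcomm x.2 y.2⟩, hΦ x y, rfl⟩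
  have hcenter : c ∈ Subgroup.center Γ := hC hck
  have hpow := Cfsg.Agent.Lib.Schur.Stem.pow_index_mem_commutator (R.U.comap σ) hcenter hcc
  obtain ⟨w, hw, hwc⟩ := hle hpow
  have hw1 : ν w = 1 := hw
  have hwcen : (w : Γ) ∈ Subgroup.center Γ := by
    have : (w : Γ) = c ^ (R.U.comap σ).index := hwc
    rw [this]
    exact pow_mem hcenter _
  have hcjw : ∀ l : Fˣ, cj l w = w := by
    intro l
    apply Subtype.ext
    show τ l * (w : Γ) * (τ l)⁻¹ = w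
    rw [Subgroup.mem_center_iff.1 hwcen (τ l), mul_assoc, mul_inv_cancel, mul_one]
  have hw2 : ν w = w ^ Fintype.card Fˣ := by
    show ∏ l : Fˣ, cj l w = _
    rw [Finset.prod_congr rfl (fun l _ => hcjw l), Finset.prod_const, Finset.card_univ]
  rw [hw2] at hw1
  have hw3 := congrArg Subtype.val hw1
  have hw4 : (w : Γ) ^ Fintype.card Fˣ = 1 := hw3
  have : (w : Γ) = c ^ (R.U.comap σ).index := hwc
  rw [← this]
  exact hw4

end Lift

end Cfsg.Agent.Lib.ReeG2.Sch2
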