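import Cfsg.Agent.Lib.ReeG2.Sch2
import Cfsg.Agent.Lib.ReeG2.E8

/-!
# Stem extensions of groups with the structure of the small Ree groups are trivial

The primes `2` and `> 3`, and the assembly.
-/

set_option autoImplicit false
set_option linter.unusedSectionVars false
set_option linter.unusedVariables false
set_option linter.style.haveILetI false

namespace Cfsg.Agent.Lib.ReeG2.Sch3

open Cfsg Cfsg.Agent.Lib.ReeG2.Sch1 Cfsg.Agent.Lib.ReeG2.Sch2 Cfsg.Agent.Lib.ReeG2.E8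
open scoped commutatorElement

section Two

variable {G Γ : Type*} [Group G] [Group Γ] (σ : Γ →* G) (hσ : Function.Surjective σ)
  (hC : σ.ker ≤ Subgroup.center Γ)

lemma alg_E8 {A : Type*} [CommGroup A] (X Y Z : A) (e1 : X⁻¹ * 1 * (Y⁻¹ * Z⁻¹) = X)
    (e2 : X⁻¹ * 1 * Z * (Y⁻¹ * Z⁻¹ * 1) = Y) (e3 : 1 * X * Y * (X⁻¹ * 1 * Z) = Z) :
    X = 1 ∧ Y = 1 ∧ Z = 1 := by
  have hY : Y = 1 := by
    simp only [one_mul, mul_one] at e3
    calc Y = X * Y * (X⁻¹ * Z) * Z⁻¹ := by rw [mul_comm X Y]; group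
      _ = 1 := by rw [e3]; group
  subst hY
  have hX : X = 1 := by
    simp only [one_mul, mul_one, inv_one] at e2
    have : X⁻¹ = 1 := by
      calc X⁻¹ = X⁻¹ * Z * Z⁻¹ := by group
        _ = 1 := e2
    exact inv_eq_one.1 this
  subst hX
  simp only [one_mul, mul_one, inv_one] at e1
  exact ⟨rfl, rfl, inv_eq_one.1 e1⟩

include hσ hC in
theorem E8_comm {a b c s : G} (S : IsE8 a b c) (hsa : s * a = b * c * s) (hsb : s * b = a * b * s)
    (hsc : s * c = a * b * c * s) {x y : Γ} (hx : σ x ∈ EE a b c) (hy : σ y ∈ EE a b c) :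
    ⁅x, y⁆ = 1 := by
  have hcm : ∀ {x y : G}, x ∈ EE a b c → y ∈ EE a b c → Commute x y := fun h h' => S.comm h h'
  have ma : a ∈ EE a b c := a_mem
  have mb : b ∈ EE a b c := b_mem
  have mc : c ∈ EE a b c := c_mem
  have mab := mul_mem ma mb
  have mbc := mul_mem mb mc
  have mabc := mul_mem mab mc
  have ea : s * a * s⁻¹ = b * c := mul_inv_eq_of_eq_mul hsa
  have eb : s * b * s⁻¹ = a * b := mul_inv_eq_of_eq_mul hsb
  have ec : s * c * s⁻¹ = a * b * c := mul_inv_eq_of_eq_mul hsc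
  have hX : cf σ hσ a b ∈ Subgroup.center Γ := hC (cf_mem_ker σ hσ (hcm ma mb))
  have hY : cf σ hσ a c ∈ Subgroup.center Γ := hC (cf_mem_ker σ hσ (hcm ma mc))
  have hZ : cf σ hσ b c ∈ Subgroup.center Γ := hC (cf_mem_ker σ hσ (hcm mb mc))
  have e1 : cf σ hσ (b * c) (a * b) = cf σ hσ a b := by
    rw [← ea, ← eb]
    exact cf_conj σ hσ hC s (hcm ma mb)
  have e2 : cf σ hσ (b * c) (a * b * c) = cf σ hσ a c := by
    rw [← ea, ← ec]
    exact cf_conj σ hσ hC s (hcm ma mc)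
  have e3 : cf σ hσ (a * b) (a * b * c) = cf σ hσ b c := by
    rw [← ec, ← eb]
    exact cf_conj σ hσ hC s (hcm mb mc)
  rw [cf_mul_left' σ hσ hC (hcm mb mab) (hcm mc mab), cf_mul_right' σ hσ hC (hcm mb ma) (hcm mb mb),
    cf_mul_right' σ hσ hC (hcm mc ma) (hcm mc mb), cf_self, cf_swap σ hσ hC a b, cf_swap σ hσ hC a c,
    cf_swap σ hσ hC b c] at e1
  rw [cf_mul_left' σ hσ hC (hcm mb mabc) (hcm mc mabc), cf_mul_right' σ hσ hC (hcm mb mab) (hcm mb mc),
    cf_mul_right' σ hσ hC (hcm mc mab) (hcm mc mc), cf_mul_right' σ hσ hC (hcm mb ma) (hcm mb mb),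
    cf_mul_right' σ hσ hC (hcm mc ma) (hcm mc mb), cf_self, cf_self, cf_swap σ hσ hC a b, cf_swap σ hσ hC a c,
    cf_swap σ hσ hC b c] at e2
  rw [cf_mul_left' σ hσ hC (hcm ma mabc) (hcm mb mabc), cf_mul_right' σ hσ hC (hcm ma mab) (hcm ma mc),
    cf_mul_right' σ hσ hC (hcm mb mab) (hcm mb mc), cf_mul_right' σ hσ hC (hcm ma ma) (hcm ma mb),
    cf_mul_right' σ hσ hC (hcm mb ma) (hcm mb mb), cf_self, cf_self, cf_swap σ hσ hC a b] at e3
  letI iC : CommGroup (Subgroup.center Γ) :=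
    { (inferInstance : Group (Subgroup.center Γ)) with
      mul_comm := fun a b => Subtype.ext (Subgroup.mem_center_iff.1 b.2 a.1) }
  obtain ⟨h1, h2, h3⟩ := alg_E8 (⟨_, hX⟩ : Subgroup.center Γ) ⟨_, hY⟩ ⟨_, hZ⟩ (Subtype.ext e1)
    (Subtype.ext e2) (Subtype.ext e3)
  have h1' : cf σ hσ a b = 1 := congrArg Subtype.val h1
  have h2' : cf σ hσ a c = 1 := congrArg Subtype.val h2
  have h3' : cf σ hσ b c = 1 := congrArg Subtype.val h3
  have hA : ∀ u v : G, (u = a ∨ u = b ∨ u = c) → (v = a ∨ v = b ∨ v = c) → cf σ hσ u v = 1 := by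
    rintro u v (rfl | rfl | rfl) (rfl | rfl | rfl)
    · exact cf_self σ hσ _
    · exact h1'
    · exact h2'
    · rw [cf_swap σ hσ hC, h1', inv_one]
    · exact cf_self σ hσ _
    · exact h3'
    · rw [cf_swap σ hσ hC, h2', inv_one]
    · rw [cf_swap σ hσ hC, h3', inv_one]
    · exact cf_self σ hσ _
  have hR1 : ∀ u : G, cf σ hσ u 1 = 1 := by
    intro u
    rw [cf_swap σ hσ hC, cf_one_left σ hσ hC, inv_one]
  have hB : ∀ u v : G, (u = a ∨ u = b ∨ u = c) → v ∈ EE a b c → cf σ hσ u v = 1 := by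
    intro u v hu hv
    have hmu : u ∈ EE a b c := by
      rcases hu with rfl | rfl | rfl
      · exact ma
      · exact mb
      · exact mc
    obtain ⟨i, j, k, rfl⟩ := S.mem_iff.1 hv
    have m1 := pw_mem ma i
    have m2 := pw_mem mb j
    have m3 := pw_mem mc k
    rw [cf_mul_right' σ hσ hC (hcm hmu (mul_mem m1 m2)) (hcm hmu m3),
      cf_mul_right' σ hσ hC (hcm hmu m1) (hcm hmu m2)]
    have f1 : cf σ hσ u (pw a i) = 1 := by
      cases i
      · exact hR1 u
      · exact hA _ _ hu (Or.inl rfl)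
    have f2 : cf σ hσ u (pw b j) = 1 := by
      cases j
      · exact hR1 u
      · exact hA _ _ hu (Or.inr (Or.inl rfl))
    have f3 : cf σ hσ u (pw c k) = 1 := by
      cases k
      · exact hR1 u
      · exact hA _ _ hu (Or.inr (Or.inr rfl))
    rw [f1, f2, f3]
    simp
  have hD : ∀ u v : G, u ∈ EE a b c → v ∈ EE a b c → cf σ hσ u v = 1 := by
    intro u v hu hv
    obtain ⟨i, j, k, rfl⟩ := S.mem_iff.1 hu
    have m1 := pw_mem ma i
    have m2 := pw_mem mb j
    have m3 := pw_mem mc k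
    rw [cf_mul_left' σ hσ hC (hcm (mul_mem m1 m2) hv) (hcm m3 hv),
      cf_mul_left' σ hσ hC (hcm m1 hv) (hcm m2 hv)]
    have f1 : cf σ hσ (pw a i) v = 1 := by
      cases i
      · exact cf_one_left σ hσ hC v
      · exact hB _ _ (Or.inl rfl) hv
    have f2 : cf σ hσ (pw b j) v = 1 := by
      cases j
      · exact cf_one_left σ hσ hC v
      · exact hB _ _ (Or.inr (Or.inl rfl)) hv
    have f3 : cf σ hσ (pw c k) v = 1 := by
      cases k
      · exact cf_one_left σ hσ hC v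
      · exact hB _ _ (Or.inr (Or.inr rfl)) hv
    rw [f1, f2, f3]
    simp
  rw [cf_eq σ hσ hC rfl rfl]
  exact hD _ _ hx hy

lemma cyc_comm (P : Subgroup G) [IsCyclic P] (hC : σ.ker ≤ Subgroup.center Γ) {x y : Γ}
    (hx : σ x ∈ P) (hy : σ y ∈ P) : ⁅x, y⁆ = 1 := by
  have h := commutative_of_cyclic_center_quotient (σ.subgroupComap P) (by
    intro z hz
    rw [Subgroup.mem_center_iff]
    intro g
    apply Subtype.ext
    have hz' : (z : Γ) ∈ σ.ker := by
      rw [MonoidHom.mem_ker]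
      exact congrArg Subtype.val hz
    exact Subgroup.mem_center_iff.1 (hC hz') g) ⟨x, hx⟩ ⟨y, hy⟩
  rw [commutatorElement_eq_one_iff_commute]
  exact congrArg Subtype.val h

/-- Transfer to a subgroup on which commutators vanish. -/
lemma pow_index_eq_one [Finite Γ] (H : Subgroup Γ) (hcm : ∀ x ∈ H, ∀ y ∈ H, ⁅x, y⁆ = 1) {c : Γ}
    (hc : c ∈ Subgroup.center Γ) (hcc : c ∈ commutator Γ) : c ^ H.index = 1 := by
  have hcS' : commutator H = ⊥ := by
    rw [commutator_def, Subgroup.commutator_eq_bot_iff_le_centralizer]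
    intro x _
    rw [Subgroup.mem_centralizer_iff]
    intro y _
    have h1 := hcm y y.2 x x.2
    rw [commutatorElement_eq_one_iff_commute] at h1
    exact Subtype.ext h1
  have hpow := Cfsg.Agent.Lib.Schur.Stem.pow_index_mem_commutator H hc hcc
  rw [hcS', Subgroup.map_bot, Subgroup.mem_bot] at hpow
  exact hpow

end Two

section Main

variable {F : Type*} [Field F] [CharP F 3] [Fintype F]
variable {G : Type*} [Group G] (R : RD F G)
variable {Γ : Type*} [Group Γ] [Finite Γ] (σ : Γ →* G)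

/-- Stem extensions of groups with the structure of the small Ree groups are trivial. -/
theorem ker_eq_bot [Finite G] {a b c s : G} (S : IsE8 a b c) (hsa : s * a = b * c * s) (hsb : s * b = a * b * s)
    (hsc : s * c = a * b * c * s) (h2 : ¬ 2 ∣ (EE a b c).index) (h3 : ¬ 3 ∣ R.U.index)
    (h3' : ¬ 3 ∣ Nat.card Fˣ) (hp : ∀ p : ℕ, p.Prime → 3 < p → ∀ P : Sylow p G, IsCyclic P)
    (hq : 4 ≤ Fintype.card F) (hsq : ∀ x : F, x * x ≠ -1)
    (hns : ∀ u : F, u ≠ 0 → (∃ d, d ≠ 0 ∧ u = d * d) ∨ ∃ d, d ≠ 0 ∧ u = -(d * d))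
    (hs : IsStemExtension σ) : σ.ker = ⊥ := by
  classical
  obtain ⟨hσ, hC, hcomm⟩ := hs
  by_contra hne
  haveI : Nontrivial σ.ker := (Subgroup.nontrivial_iff_ne_bot _).2 hne
  obtain ⟨p, hpp, hdvd⟩ := Nat.exists_prime_and_dvd (Finite.one_lt_card (α := σ.ker)).ne'
  haveI : Fact p.Prime := ⟨hpp⟩
  obtain ⟨⟨z, hzk⟩, hzp⟩ := exists_prime_orderOf_dvd_card' (G := σ.ker) p hdvd
  have hzp' : orderOf z = p := by
    rw [← hzp]
    exact (Subgroup.orderOf_mk z hzk).symm
  have hzc : z ∈ Subgroup.center Γ := hC hzk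
  have hzcc := hcomm hzk
  rcases (by have := hpp.two_le; omega : p = 2 ∨ p = 3 ∨ 3 < p) with rfl | rfl | hp3
  · have h := pow_index_eq_one ((EE a b c).comap σ) (fun x hx y hy => E8_comm σ hσ hC S hsa hsb hsc hx hy) hzc hzcc
    have h4 := orderOf_dvd_of_pow_eq_one h
    rw [hzp', Subgroup.index_comap_of_surjective _ hσ] at h4
    exact h2 h4
  · have h := pow_eq_one_of_mem_ker R σ hσ hC hq hsq hns hzk hzcc
    rw [← pow_mul] at h
    have h4 := orderOf_dvd_of_pow_eq_one h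
    rw [hzp', Subgroup.index_comap_of_surjective _ hσ] at h4
    rcases (Nat.Prime.dvd_mul hpp).1 h4 with h5 | h5
    · exact h3 h5
    · exact h3' h5
  · obtain ⟨P⟩ : Nonempty (Sylow p G) := inferInstance
    haveI := hp p hpp hp3 P
    have h := pow_index_eq_one ((P : Subgroup G).comap σ) (fun x hx y hy => cyc_comm σ (P : Subgroup G) hC hx hy) hzc hzcc
    have h4 := orderOf_dvd_of_pow_eq_one h
    rw [hzp', Subgroup.index_comap_of_surjective _ hσ] at h4
    exact P.not_dvd_index h4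

end Main

end Cfsg.Agent.Lib.ReeG2.Sch3
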