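import Cfsg.Agent.Lib.ReeG2.Con8
import Cfsg.Agent.Lib.ReeG2.Sch3

/-!
# The Schur multiplier of the small Ree groups is trivial
-/

set_option autoImplicit false
set_option linter.unusedTactic false
set_option linter.unreachableTactic false
set_option linter.unusedSectionVars false
set_option linter.unusedVariables false
set_option linter.ambiguousOpen false
set_option linter.dupNamespace false
set_option maxHeartbeats 2000000

namespace Cfsg.Agent.Lib.ReeG2.Sch4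

open scoped MatrixGroups Matrix
open Cfsg Lie ChevalleyDatum
open Cfsg.Agent.Lib.Chev
open Tables Tables2 Tables3 Raise Basic AxBasic Torus Products Products2 Mono1 Mono2 Mono3 Bn ChevSimple
open Cfsg.Agent.Lib.Twisted.Fact Cfsg.Agent.Lib.Twisted.Bruhat Cfsg.Agent.Lib.Twisted.Tw
open Cfsg.Agent.Lib.Twisted.Struct Cfsg.Agent.Lib.Twisted.Check Cfsg.Agent.Lib.Twisted.Ortho
open Cfsg.Agent.Lib.ReeG2.Blocks Cfsg.Agent.Lib.ReeG2.Tw Cfsg.Agent.Lib.ReeG2.Blk7 Cfsg.Agent.Lib.ReeG2.Unip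
open Cfsg.Agent.Lib.ReeG2.RTD Cfsg.Agent.Lib.ReeG2.H1 Cfsg.Agent.Lib.ReeG2.Rank1 Cfsg.Agent.Lib.ReeG2.Rank1.Sp Cfsg.Agent.Lib.ReeG2.Str
open Cfsg.Agent.Lib.ReeG2.Fini Cfsg.Agent.Lib.ReeG2.Fini2 Cfsg.Agent.Lib.ReeG2.L Cfsg.Agent.Lib.ReeG2.Rank1b
open Cfsg.Agent.Lib.ReeG2.L2 Cfsg.Agent.Lib.ReeG2.L3 Cfsg.Agent.Lib.ReeG2.L4 Cfsg.Agent.Lib.ReeG2.L5
open Cfsg.Agent.Lib.ReeG2.T Cfsg.Agent.Lib.ReeG2.Con1 Cfsg.Agent.Lib.ReeG2.Con2 Cfsg.Agent.Lib.ReeG2.Con3 Cfsg.Agent.Lib.ReeG2.Con4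
open Cfsg.Agent.Lib.ReeG2.Ab1 Cfsg.Agent.Lib.ReeG2.Ab2 Cfsg.Agent.Lib.ReeG2.Ab3 Cfsg.Agent.Lib.ReeG2.Ab4 Cfsg.Agent.Lib.ReeG2.Ab5
open Cfsg.Agent.Lib.ReeG2.Deg Cfsg.Agent.Lib.ReeG2.Con8
open Cfsg.Agent.Lib.ReeG2.Sch2 Cfsg.Agent.Lib.ReeG2.Sch3
open Cfsg.Agent.Lib.Chev.SL2 (upM loM)

section Twist

variable {F : Type*} [Field F] [CharP F 3] (ax : Ax chevG2 F)
variable (f : F ≃+* F) {e : ℕ} (hf : ∀ t, f t = t ^ e) (hff : ∀ t, f (f t) ^ 3 = t)
variable (hns : ∀ l : Fˣ, (∃ ν : Fˣ, l = ν ^ 2) ∨ ∃ ν : Fˣ, l = -ν ^ 2)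

/-- The map `t ↦ f(t)³`. -/
def sF : F →+* F := (frobenius F 3).comp (f : F →+* F)

lemma sF_apply (t : F) : sF f t = f t ^ 3 := by
  show frobenius F 3 (f t) = _
  rw [frobenius_def]

include hff in
lemma sF_sF (t : F) : sF f (sF f t) = t ^ 3 := by
  rw [sF_apply, sF_apply, map_pow, ← pow_mul, mul_comm, pow_mul, hff]

/-- The coordinates on the Borel subgroup. -/
noncomputable def rd : RD F ↥(twistedG2 F e) where
  s := sF f
  ss := sF_sF f hff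
  uu := fun t a b => ⟨xx ax f t a b, xx_mem ax f hf t a b⟩
  hG := fun l => ⟨hh f l, (hh_mem_H1 ax f hf hns hff l).2⟩
  U := UG F e
  Y := YY ax f hf hff
  mem_U := by
    intro x
    constructor
    · intro hx
      obtain ⟨t, a, b, h⟩ := U_form ax f hf hff hx
      exact ⟨t, a, b, Subtype.ext h⟩
    · rintro ⟨t, a, b, rfl⟩
      exact xx_mem_U1 ax f hf hff t a b
  mem_Y := by
    intro x
    constructor
    · rintro ⟨a, b, h⟩
      exact ⟨a, b, Subtype.ext h⟩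
    · rintro ⟨a, b, rfl⟩
      exact ⟨a, b, rfl⟩
  uu_mul := by
    intro t1 u1 v1 t2 u2 v2
    apply Subtype.ext
    show xx ax f t1 u1 v1 * xx ax f t2 u2 v2 = xx ax f _ _ _
    rw [xx_mul ax f hff, sF_apply]
  hG_conj := by
    intro l t u v
    apply Subtype.ext
    show hh f l * xx ax f t u v * (hh f l)⁻¹ = xx ax f _ _ _
    rw [hh_conj_xx ax f hff, sF_apply]
  hG_mul := by
    intro l l'
    exact Subtype.ext (hh_mul f l l')

end Twist

variable {K : Type*} [Field K] [Fintype K] {m : ℕ}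

/-- The Schur multiplier of `²G₂(q)`, `q = 3^(2m+1) ≥ 27`, is trivial. -/
theorem res2113 (hm : 1 ≤ m) (hK : Fintype.card K = 3 ^ (2 * m + 1)) :
    HasCyclicSchurMultiplier ↥(twistedG2 K (3 ^ m)) 1 := by
  obtain ⟨hc, f, hf, hff, ax, hns⟩ := exists_ctx hK
  haveI := hc
  haveI : Finite ↥(twistedG2 K (3 ^ m)) := inferInstance
  refine Cfsg.Agent.Lib.Schur.Stem.hasCyclicSchurMultiplier_one ?_
  intro Γ _ _ σ hs
  have hq := natcard hK
  have hq27 : 27 ≤ 3 ^ (2 * m + 1) := q_ge m hm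
  have hq3 : 3 ∣ 3 ^ (2 * m + 1) := dvd_pow_self 3 (by omega)
  have h2 : ¬ 2 ∣ (Cfsg.Agent.Lib.ReeG2.E8.EE (aG ax f hf hff) (LL ax f hf hff iM) (LL ax f hf hff jM)).index := by
    obtain ⟨k, hk, hodd⟩ := card_eq_eight_mul hK
    have h := Subgroup.card_mul_index (Cfsg.Agent.Lib.ReeG2.E8.EE (aG ax f hf hff) (LL ax f hf hff iM) (LL ax f hf hff jM))
    rw [(isE8 ax f hf hff).card, hk] at h
    have h1 := Nat.eq_of_mul_eq_mul_left (by norm_num) h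
    rw [h1]
    exact hodd.not_two_dvd_nat
  have h3 : ¬ 3 ∣ (rd ax f hf hff hns).U.index := by
    show ¬ 3 ∣ (UG K (3 ^ m)).index
    have h := Subgroup.card_mul_index (UG K (3 ^ m))
    rw [card_UG ax f hf hff, hq, res1069 hK] at h
    have h1 : (UG K (3 ^ m)).index = (3 ^ (2 * m + 1) - 1) * ((3 ^ (2 * m + 1)) ^ 3 + 1) := by
      apply Nat.eq_of_mul_eq_mul_left (pow_pos (pow_pos (by norm_num) _) 3 : 0 < (3 ^ (2 * m + 1)) ^ 3)
      rw [h, mul_assoc]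
    rw [h1]
    generalize 3 ^ (2 * m + 1) = q at hq27 hq3
    have h4 : 3 ∣ q ^ 3 := dvd_pow hq3 (by norm_num)
    intro h5
    rcases (Nat.Prime.dvd_mul Nat.prime_three).1 h5 with h6 | h6
    · omega
    · omega
  have h3' : ¬ 3 ∣ Nat.card Kˣ := by
    rw [Nat.card_units, hq]
    generalize 3 ^ (2 * m + 1) = q at hq27 hq3
    omega
  have hq4 : 4 ≤ Fintype.card K := by
    rw [hK]
    omega
  have hns' : ∀ u : K, u ≠ 0 → (∃ d, d ≠ 0 ∧ u = d * d) ∨ ∃ d, d ≠ 0 ∧ u = -(d * d) := by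
    intro u hu
    rcases hns (Units.mk0 u hu) with ⟨ν, hν⟩ | ⟨ν, hν⟩
    · left
      refine ⟨ν, ν.ne_zero, ?_⟩
      have := congrArg Units.val hν
      rw [Units.val_mk0] at this
      rw [this, Units.val_pow_eq_pow_val, pow_two]
    · right
      refine ⟨ν, ν.ne_zero, ?_⟩
      have := congrArg Units.val hν
      rw [Units.val_mk0] at this
      rw [this, Units.val_neg, Units.val_pow_eq_pow_val, pow_two]
  have key := ker_eq_bot (rd ax f hf hff hns) σ (isE8 ax f hf hff) (rel_s_a ax f hf hff) (rel_s_b ax f hf hff)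
    (rel_s_c ax f hf hff) h2 h3 h3'
    (fun p hp hp3 P => by
      haveI : Fact p.Prime := ⟨hp⟩
      exact sylow_cyclic hK hp3 P)
    hq4 (neg_one_not_sq hK) hns' hs
  rw [key]
  simp

end Cfsg.Agent.Lib.ReeG2.Sch4
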